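import Cfsg.Agent.H9.O6.Kl3
import Cfsg.Agent.H5.U.Bridge
import Cfsg.Agent.H5.U.Gen

/-! The Klein correspondence for `SU_4`. -/

set_option autoImplicit false
set_option linter.unusedSimpArgs false
set_option linter.unusedSectionVars false
set_option linter.unusedVariables false

namespace Cfsg.Agent.H9.O6

open Module Matrix Cfsg.Agent.Orth Cfsg.Agent.H6 Cfsg.Agent.H5.U

variable (K : Type*) [Field K] [StarRing K]

/-- conjugation -/
def cj : (Fin 3 → K) →ₗ[F0 K] Fin 3 → K where
  toFun := star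
  map_add' := star_add
  map_smul' c x := by ext i; simp [Subfield.smul_def]

/-- the Pfaffian on the real form -/
def QU : QuadraticForm (F0 K) (Fin 3 → K) :=
  QuadraticMap.ofPolar (fun x => ⟨-(x ⬝ᵥ star x), by simp [mem_F0, dotProduct, mul_comm]⟩)
    (fun a x => Subtype.ext (by simp [Subfield.smul_def, mul_assoc]))
    (fun x y z => Subtype.ext (by simp [QuadraticMap.polar]; ring))
    (fun a x y => Subtype.ext (by simp [QuadraticMap.polar, Subfield.smul_def]; ring))

/-- the special unitary group -/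
noncomputable def SU4 : Subgroup (GL (Fin 4) K) :=
  (stdHF (Fin 4) K).GU.comap gl0.toMonoidHom ⊓ Geo.specialLinear (Fin 4) K

variable {K}

theorem mem_GU_mat {n : Type} [Fintype n] [DecidableEq n] {g : GL n K} :
    gl0 g ∈ (stdHF n K).GU ↔ g.1ᵀ * g.1.map (starRingEnd K) = 1 := by
  have : ∀ x y, stdHF n K (gl0 g x) (gl0 g y) = x ⬝ᵥ (g.1ᵀ * g.1.map (starRingEnd K)) *ᵥ star y :=
    fun x y => by
    rw [← mulVec_mulVec, dotProduct_mulVec, vecMul_transpose]
    simp [stdHF, gl0_apply, dotProduct, mulVec, starRingEnd_apply]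
  simp only [HF.mem_GU, this]
  refine ⟨fun h => ext fun i j => ?_, fun h x y => by rw [h, one_mulVec]; rfl⟩
  simpa [stdHF, Pi.single_apply, one_apply, apply_ite star, @eq_comm _ j] using h (Pi.single i 1) (Pi.single j 1)

theorem alt_star (p r : Fin 3 → K) :
    (alt K (p, r)).map (starRingEnd K) = alt K (star p, star r) := by
  ext i j; fin_cases i <;> fin_cases j <;>
    first | exact map_zero (starRingEnd K) | exact map_neg (starRingEnd K) _ | rfl

theorem star_wp (v a : Fin 4 → K) : star (wp v a) = wp (star v) (star a) := by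
  ext i; fin_cases i <;> simp [wp]

theorem star_wr (v a : Fin 4 → K) : star (wr v a) = wr (star v) (star a) := by
  ext i; fin_cases i <;> simp [wr]

theorem wp_real {u : Fin 4 → K} (hu : u ⬝ᵥ star u = 0) (y : Fin 3 → K) :
    star (wp u (alt K (y, star y) *ᵥ star u)) = -wr u (alt K (y, star y) *ᵥ star u) := by
  simp only [dotProduct, Fin.sum_univ_four, Pi.star_apply] at hu
  ext i; fin_cases i <;> simp [wp, wr, alt, mulVec, dotProduct, Fin.sum_univ_four]
  exacts [by linear_combination -star (y 0) * hu, by linear_combination -star (y 1) * hu,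
    by linear_combination -star (y 2) * hu]

variable [NStar K]

theorem real_span (S : Submodule K ((Fin 3 → K) × (Fin 3 → K)))
    (h : ∀ x, (x, star x) ∈ S) (z : (Fin 3 → K) × (Fin 3 → K)) : z ∈ S := by
  obtain ⟨a, ha⟩ := NStar.exists_ne (F := K)
  have := sub_ne_zero.2 ha
  have := sub_ne_zero.2 ha.symm
  convert add_mem (h (z.1 + (star a - a)⁻¹ • a • (z.1 - star z.2)))
    (S.smul_mem a (h ((star a - a)⁻¹ • (star z.2 - z.1)))) using 1
  ext i <;> simp [star_inv₀] <;> field_simp <;> ring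

theorem finrank_F0 : finrank (F0 K) K = 2 := by
  obtain ⟨a, ha⟩ := NStar.exists_ne (F := K)
  refine (finrank_eq_card_basis (Basis.mk (v := ![1, a]) (LinearIndependent.pair_iff.2 fun s t e => ?_)
    fun z _ => ?_)).trans (by simp)
  · have h1 := congrArg star e
    simp only [Subfield.smul_def, smul_eq_mul, star_add, star_mul', star_F0, star_one, star_zero] at e h1
    have h2 : t = 0 := by
      simpa [sub_ne_zero.2 ha] using (by linear_combination h1 - e : (t : K) * (star a - a) = 0)
    simpa [h2] using e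
  · obtain ⟨x, y, hx, hy, rfl⟩ := exists_coord ha z
    simpa [Submodule.mem_span_pair] using ⟨y, hy, x, hx, by simp [Subfield.smul_def, add_comm]⟩

theorem alt_dot (z : (Fin 3 → K) × (Fin 3 → K)) (u v : Fin 4 → K) :
    (alt K z *ᵥ u) ⬝ᵥ v = -(u ⬝ᵥ alt K z *ᵥ v) := by
  rw [dotProduct_mulVec, ← mulVec_transpose, alt_T, neg_mulVec, neg_dotProduct, neg_neg]

theorem alt_self (z : (Fin 3 → K) × (Fin 3 → K)) (u : Fin 4 → K) : (alt K z *ᵥ u) ⬝ᵥ u = 0 := by
  simp [alt, mulVec, dotProduct, Fin.sum_univ_four]; ring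

theorem exists_T {u : Fin 4 → K} (hu : u ⬝ᵥ star u = 0) {c : K} (hc : c + star c = 0) :
    ∃ x w : Fin 3 → K, x ⬝ᵥ star x = 0 ∧ x ⬝ᵥ star w + w ⬝ᵥ star x = 0 ∧
      alt K (x, star x) * alt K (star w, w) = -c • vecMulVec u (star u) := by
  by_cases u0 : u = 0
  · exact ⟨0, 0, by simp [u0, ← Prod.zero_eq_mk]⟩
  let φ := fun y y' => (alt K (y, star y) *ᵥ star u) ⬝ᵥ (alt K (star y', y') *ᵥ u)
  obtain ⟨y, y', h2⟩ : ∃ y y', φ y y' ≠ 0 := by
    by_contra! h
    have h3 : ∀ i j, i ≠ j → star (u i) * u j = 0 := fun i j hij => by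
      simpa [mulVec, dotProduct, single_apply, ite_and] using single_mem (p := .id) (r := cj K) real_span
        (LinearMap.ker (dotProductBilin K K (star u) ∘ₗ (mulVecBilin K K).flip u)) (fun y y' => by
          have := h y y'
          simp only [φ, alt_dot, mulVec_mulVec, neg_eq_zero] at this
          exact this) hij
    refine absurd (funext fun j => ?_) u0
    have := congrArg (· * u j) hu
    simp only [dotProduct, Finset.sum_mul, Pi.star_apply, mul_assoc] at this
    rw [Finset.sum_eq_single j (fun i _ e => by simp [h3 i j e]) (by simp)] at this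
    simpa using this
  have h1 : star (φ y y') = -φ y y' := by
    simp only [dotProduct, Fin.sum_univ_four, Pi.star_apply] at hu
    simp [φ, alt, mulVec, dotProduct, Fin.sum_univ_four]
    linear_combination (y 0 * star (y' 0) + y 1 * star (y' 1) + y 2 * star (y' 2) +
      y' 0 * star (y 0) + y' 1 * star (y 1) + y' 2 * star (y 2)) * hu
  have hd := del_ne (F := K)
  have hd' : star (del K) = -del K := eq_neg_of_add_eq_zero_right del_tr
  have hb : star (alt K (y', star y') *ᵥ star u) = alt K (star y', y') *ᵥ u := by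
    ext i; fin_cases i <;> simp [alt, mulVec, dotProduct, Fin.sum_univ_four]
  have e1 := wp_real hu y
  have e2 := congrArg star (wp_real hu y')
  have e3 := star_wp u (alt K (y', star y') *ᵥ star u)
  have e4 := alt_self (y, star y) (star u)
  have e5 := (dotProduct_comm _ _).trans (alt_self (star y', y') u)
  rw [star_star, star_neg, star_wr, hb] at e2
  rw [hb] at e3
  simp only [φ] at h1 h2
  generalize alt K (y, star y) *ᵥ star u = a at *
  generalize alt K (star y', y') *ᵥ u = b at *
  have e6 : star (c / (a ⬝ᵥ b * del K)) = -(c / (a ⬝ᵥ b * del K)) := by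
    simp [star_div₀, eq_neg_of_add_eq_zero_right hc, h1, hd', neg_div]
  refine ⟨(c / (a ⬝ᵥ b * del K)) • wp u a, -del K • wp u (alt K (y', star y') *ᵥ star u), ?_⟩
  simp only [star_smul, e1, e3, e6, star_neg, hd']
  simp only [e2, smul_neg, neg_smul, neg_neg, ← Prod.smul_mk, map_smul]
  refine ⟨by simp [wp_wr], ?_, ?_⟩
  · simpa [hu, e5, mul_add, mul_assoc, mul_left_comm (del K)] using
      congrArg (c / (a ⬝ᵥ b * del K) * del K * ·) (wp_wp u a (star u) b)
  · rw [smul_mul_assoc, mul_smul_comm, wedge_mul hu e5 e4, smul_smul, smul_smul, ← neg_smul]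
    congr 1; field_simp

theorem kl_SU (K : Type*) [Field K] [StarRing K] [NStar K] [Finite K] :
    Kl (QU K) (AL .id (cj K)) (AL (cj K) .id) (SU4 K) := by
  have hQ : ∀ x, algebraMap (F0 K) K (QU K x) = -(LinearMap.id (R := F0 K) x ⬝ᵥ cj K x) :=
    fun x => rfl
  have sq : ∀ x, AL (cj K) .id x * AL .id (cj K) x = QU K x • 1 := fun x => by
    rw [AL_apply, AL_apply, alt_sq, dotProduct_comm, ← hQ, algebraMap_smul]
  have sq' : ∀ x, AL .id (cj K) x * AL (cj K) .id x = QU K x • 1 := fun x => by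
    rw [AL_apply, AL_apply, alt_sq, ← hQ, algebraMap_smul]
  refine kl_of hQ (fun x a b => a) real_span (by simp [finrank_pi_fintype, finrank_F0])
    (fun u w hu hw g e h => ⟨mem_GU_mat.2 ?_, h⟩) fun M hM g hg => ?_
  · simpa [e, AL_apply, alt_T, Matrix.map_sub, alt_star, cj] using
      inv_ring (a := AL (cj K) .id) sq sq' hu hw
  suffices (stdHF (Fin 4) K).SU ≤ M.map gl0.toMonoidHom from
    (Subgroup.mem_map_iff_mem gl0.injective).1 (this ⟨hg.1, (glEquiv_mem_SLV _ g).2 hg.2⟩)
  rw [← HF.SUW_top]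
  refine HF.SUW_le_of_XIn HF.ndOn_top (by simp) fun u _ hu c hc => ?_
  obtain ⟨g, hg⟩ := gl0.surjective ((stdHF (Fin 4) K).T u c)
  obtain ⟨x, w, h1, h2, h3⟩ := exists_T hu hc
  have h4 : gl0 g ∈ (stdHF (Fin 4) K).SU := hg ▸ HF.T_mem_SU _ _
  refine ⟨g, hM x w g ⟨h4.1, (glEquiv_mem_SLV _ g).1 h4.2⟩ (Subtype.ext (neg_eq_zero.2 h1))
    (Subtype.ext ((B_of hQ x w).trans (neg_eq_zero.2 h2))) (toLin'.injective ?_), hg⟩
  rw [← gl0_coe, hg, AL_apply, AL_apply]
  refine LinearMap.ext fun v => ?_
  simp [cj, h3, HF.T_apply hu hc, vecMulVec_mulVec, smul_smul, dotProduct_comm (star u)]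
  rfl

end Cfsg.Agent.H9.O6
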