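import Cfsg.Agent.H9.O6.Kl2
import Cfsg.Agent.H9.O6.Kl4
import Cfsg.Agent.H6.X1

/-! Maximality of the normaliser of `4 ∘ 2^{1+4}` in `SL_4(p)` and `SU_4(p)`. -/

set_option autoImplicit false
set_option linter.unusedSimpArgs false
set_option linter.unusedSectionVars false
set_option linter.unusedVariables false

namespace Cfsg.Agent.H9.O6

open Module Matrix Cfsg.Agent.H5.U
open scoped commutatorElement

variable {K : Type*} [Field K] [Finite K]

theorem symp_mat {n : Type} [Fintype n] [DecidableEq n] [Nonempty n] {R : Subgroup (GL n K)}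
    (h1 : Geo.IsSymplecticTypeGroup 2 R) (h2 : H7.AbsIrr R)
    (hZ : Nat.card (Subgroup.center R) = 4) : (∀ r ∈ R, r.1 * r.1 = 1 ∨ r.1 * r.1 = -1) ∧
      ∃ i : K, i * i = -1 ∧ ∃ z ∈ R, z.1 = i • 1 := by
  have sc : ∀ x ∈ Subgroup.center R, ∃ c : K, x.1.1 = c • 1 := fun x hx => h2.2 _ fun g hg =>
    congrArg (fun x : R => x.1.1) (Subgroup.mem_center_iff.1 hx ⟨g, hg⟩).symm
  obtain ⟨j⟩ := ‹Nonempty n›
  have h3 : ∀ r ∈ R, r.1 * r.1 = 1 ∨ r.1 * r.1 = -1 := fun r hr => by
    obtain ⟨c, hc⟩ := sc (⟨r, hr⟩ * ⟨r, hr⟩) (Subgroup.mem_center_iff.2 fun y => by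
      generalize (⟨r, hr⟩ : R) = x
      obtain ⟨a, b⟩ := H6.El.symp_comm h1.pGroup h1.cyclic_of_characteristic h1.exponent_eq hZ y x
      have e : y * x = ⁅y, x⁆ * (x * y) := by simp [commutatorElement_def, mul_assoc]
      rw [← mul_assoc, e, mul_assoc, mul_assoc, e, ← mul_assoc x, Subgroup.mem_center_iff.1 a x]
      simp only [← mul_assoc, ← sq, b, one_mul])
    have : r.1 * r.1 * (r.1 * r.1) = 1 := by
      simpa [h1.exponent_eq, pow_succ, mul_assoc] using
        congrArg (fun x : R => x.1.1) (Monoid.pow_exponent_eq_one (⟨r, hr⟩ : R))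
    change r.1 * r.1 = _ at hc
    rw [hc] at this ⊢
    exact (mul_self_eq_one_iff.1 (by simpa using congrFun (congrFun this j) j : c * c = 1)).imp
      (by simp +contextual) (by simp +contextual)
  have := h1.cyclic_of_characteristic (Subgroup.center R) inferInstance inferInstance
  obtain ⟨z, hz⟩ := IsCyclic.exists_ofOrder_eq_natCard (α := Subgroup.center R)
  obtain ⟨i, hi⟩ := sc z z.2
  refine ⟨h3, i, ?_, _, z.1.2, hi⟩
  rcases h3 _ z.1.2 with e | e
  · have := orderOf_dvd_of_pow_eq_one (x := z) (n := 2) (Subtype.ext (Subtype.ext (Units.ext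
      (by simpa [sq] using e))))
    simp [hz, hZ] at this
  · simpa [hi] using congrFun (congrFun e j) j

variable {R : Subgroup (GL (Fin 4) K)} {i : K} {z : GL (Fin 4) K}

theorem le_SL (h2 : (2 : K) ≠ 0) (pm : ∀ r ∈ R, r.1 * r.1 = 1 ∨ r.1 * r.1 = -1) (irr : H7.AbsIrr R)
    (hi : i * i = -1) (hz : z ∈ R) (hz' : z.1 = i • 1) : R ≤ Geo.specialLinear (Fin 4) K := by
  have h1 : ∀ r ∈ R, r.1 * r.1 = 1 → r.1.det = 1 := fun r hr e => by
    by_cases c : ∀ y ∈ R, r.1 * y.1 = y.1 * r.1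
    · obtain ⟨c, hc⟩ := irr.2 _ c
      have : c * c = 1 := by simpa [hc] using congrFun (congrFun e 0) 0
      simp [hc]; linear_combination (c * c + 1) * this
    push Not at c
    obtain ⟨y, hy, c⟩ := c
    have h3 : y.1 * r.1 = -(r.1 * y.1) := by
      have d : y.1 * r.1 * (y.1 * y.1) = r.1 * ((r * y).1 * (r * y).1) * y.1 := by
        simp [mul_assoc, ← mul_assoc r.1 r.1, e]
      rcases pm y hy with a | a <;> rcases pm _ (mul_mem hr hy) with b | b <;> rw [a, b] at d <;>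
        simp_all [neg_eq_iff_eq_neg]
    have h4 : y.1 * (1 + i • r.1) = (1 - i • r.1) * y.1 := by simp [mul_add, add_mul, h3, sub_eq_add_neg]
    have h5 : (1 - i • r.1) * (1 + i • r.1) = (2 : K) • 1 := by
      simp [mul_add, sub_mul, e, smul_smul, hi, two_smul, smul_sub]; abel
    have h6 : (1 + i • r.1) * (1 + i • r.1) = (2 * i) • r.1 := by
      simp [mul_add, add_mul, e, smul_smul, hi, two_mul, add_smul]; abel
    replace h4 := congrArg det h4
    replace h5 := congrArg det h5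
    replace h6 := congrArg det h6
    simp only [det_mul, det_smul, det_one, Fintype.card_fin, mul_comm y.1.det] at h4 h5 h6
    rw [← mul_right_cancel₀ y.det_ne_zero h4, h6] at h5
    exact mul_left_cancel₀ (pow_ne_zero 4 h2) (by
      linear_combination h5 - 16 * (i * i - 1) * r.1.det * hi)
  have h3 : z.1.det = 1 := by simp [hz']; linear_combination (i * i - 1) * hi
  refine fun r hr => Units.ext ((pm r hr).elim (h1 r hr) fun e => ?_)
  simpa [h3] using h1 _ (mul_mem hz hr) (by simp [hz', e, smul_smul, hi])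

theorem scal_mem (hi : i * i = -1) (hz : z ∈ R) (hz' : z.1 = i • 1) {g : GL (Fin 4) K}
    (hg : g ∈ Geo.specialLinear (Fin 4) K) (c : K) (e : g.1 = c • 1) : g ∈ R := by
  have : (c - 1) * (c - i) * (c - i * i) * (c - i * i * i) = 0 := by
    have := congrArg Units.val hg
    simp [e] at this
    rw [hi]; linear_combination this - (c * c - 1) * hi
  simp only [mul_eq_zero, sub_eq_zero] at this
  rcases this with ((rfl | rfl) | rfl) | rfl
  exacts [(Units.ext (by simp [e]) : g = 1) ▸ one_mem _, (Units.ext (by simp [e, hz']) : g = z) ▸ hz,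
    (Units.ext (by simp [e, hz', smul_smul]) : g = z * z) ▸ mul_mem hz hz,
    (Units.ext (by simp [e, hz', smul_smul, mul_assoc]) : g = z * z * z) ▸ mul_mem (mul_mem hz hz) hz]

theorem sl4_core (hp : ∀ c : K, ∃ n : ℕ, c = n) (h2 : (2 : K) ≠ 0)
    (pm : ∀ r ∈ R, r.1 * r.1 = 1 ∨ r.1 * r.1 = -1) (irr : H7.AbsIrr R) (hi : i * i = -1) (hz : z ∈ R)
    (hz' : z.1 = i • 1) : Geo.IsMaximalIn (Geo.specialLinear (Fin 4) K)
      (Geo.subgroupNormalizer R ⊓ Geo.specialLinear (Fin 4) K) :=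
  C6.max ⟨kl_SL K, h2, le_SL h2 pm irr hi hz hz', pm, irr, fun _ => scal_mem hi hz hz',
    fun x y c _ _ _ e => e.elim (fun e => ⟨c, e.symm⟩) fun e => ⟨i * c, by
      simp only [Algebra.algebraMap_self, RingHom.id_apply] at e
      linear_combination e - c * c * hi⟩⟩ hp

theorem su4_core [StarRing K] [NStar K] (hp : ∀ c : F0 K, ∃ n : ℕ, c = n) (h2 : (2 : K) ≠ 0)
    (hU : ∀ r ∈ R, H6.gl0 r ∈ (stdHF (Fin 4) K).GU)
    (pm : ∀ r ∈ R, r.1 * r.1 = 1 ∨ r.1 * r.1 = -1) (irr : H7.AbsIrr R) (hi : i * i = -1) (hz : z ∈ R)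
    (hz' : z.1 = i • 1) : Geo.IsMaximalIn (SU4 K) (Geo.subgroupNormalizer R ⊓ SU4 K) := by
  have h := kl_SU K
  refine C6.max ⟨h, fun e => h2 (congrArg Subtype.val e), fun r hr => ⟨hU r hr,
    le_SL h2 pm irr hi hz hz' hr⟩, pm, irr, fun _ hg => scal_mem hi hz hz' hg.2,
    fun x y c g hg e e' => ?_⟩ hp
  have h1 : i * star i = 1 := by
    simpa [hz', starRingEnd_apply] using congrFun (congrFun (mem_GU_mat.1 (hU z hz)) 0) 0
  have h3 : c * star c = (QU K x * QU K y : F0 K) := by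
    have a := congrArg (fun X => Xᵀ * X.map (starRingEnd K)) e
    have b : (AL .id (cj K) x * AL (cj K) .id y).map (starRingEnd K) =
      AL (cj K) .id x * AL .id (cj K) y := by simp [AL_apply, alt_star, cj]
    simp only [b, transpose_mul, h.skew, h.skew', neg_mul_neg, mul_assoc, ← mul_assoc (AL _ _ x),
      h.sq, smul_mul_assoc, one_mul, mul_smul_comm, h.sq', transpose_smul, Matrix.map_smul' _ _ _ (map_mul _),
      mem_GU_mat.1 hg.1] at a
    simpa [Subfield.smul_def, starRingEnd_apply, mul_comm] using (congrFun (congrFun a 0) 0).symm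
  have h4 : star i = -i := by linear_combination -i * h1 + star i * hi
  by_cases c0 : c = 0
  · exact ⟨0, Subtype.ext (by simpa [c0] using h3.symm)⟩
  rcases e' with e' | e'
  · exact ⟨⟨c, mul_left_cancel₀ c0 (h3.trans e'.symm)⟩, Subtype.ext e'.symm⟩
  · have : star c = -c := mul_left_cancel₀ c0 (by rw [h3, mul_neg, e', neg_neg]; rfl)
    exact ⟨⟨i * c, by simp [mem_F0, this, h4]⟩, Subtype.ext (by
      simp only [← h3, this, MulMemClass.coe_mul]; linear_combination -c * c * hi)⟩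

variable [Fintype K]

theorem sl4_c6 {p : ℕ} (hp : p.Prime) (hK : Fintype.card K = p) (h4 : p % 4 = 1)
    (h : Geo.IsLinearSymplecticTypeData 2 R) : Geo.IsMaximalIn (Geo.specialLinear (Fin 4) K)
      (Geo.subgroupNormalizer R ⊓ Geo.specialLinear (Fin 4) K) := by
  obtain ⟨_, _, -, -, ⟨a, -⟩ | ⟨-, -, a, -⟩ | ⟨-, -, a, -⟩⟩ := h.field
  · simp [← Nat.not_even_iff_odd] at a
  · obtain ⟨a, i, b, z, c, d⟩ := symp_mat h.symplecticType (H7.absIrr_iff.2 h.absIrred) a
    exact sl4_core (H1.prime_field_cast (hK ▸ hp)) (H1.two_ne_zero_of_odd (Nat.odd_iff.2 (by omega)))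
      a (H7.absIrr_iff.2 h.absIrred) b c d
  · simp at a

theorem SU4_eq {q : ℕ} (hK : Fintype.card K = q ^ 2) :
    letI := powStar hK; SU4 K = GU 4 K q ⊓ Geo.specialLinear (Fin 4) K := rfl

theorem su4_c6 {q : ℕ} (hK : Fintype.card K = q ^ 2) (hp : q.Prime) (h4 : q % 4 = 3)
    (h1 : Geo.IsSymplecticTypeGroup 2 R) (h2 : Geo.ActsAbsolutelyIrreducibly (Geo.matrixSet R))
    (h3 : R ≤ GU 4 K q) (hZ : Nat.card (Subgroup.center R) = 4) :
    Geo.IsMaximalIn (GU 4 K q ⊓ Geo.specialLinear (Fin 4) K)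
      (Geo.subgroupNormalizer R ⊓ (GU 4 K q ⊓ Geo.specialLinear (Fin 4) K)) := by
  letI := powStar hK
  have := powStar_nstar hK
  have := Fintype.ofFinite (F0 K)
  obtain ⟨a, i, b, z, c, d⟩ := symp_mat h1 (H7.absIrr_iff.2 h2) hZ
  exact su4_core (H1.prime_field_cast (by rwa [← Nat.card_eq_fintype_card, card_F0 hK]))
    (H1.two_ne_zero_of_odd (hK ▸ (Nat.odd_iff.2 (by omega)).pow)) h3 a (H7.absIrr_iff.2 h2) b c d

end Cfsg.Agent.H9.O6
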