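import Cfsg.Agent.H9.O6.Kl1
import Cfsg.Agent.H6.ELine

/-! The Klein correspondence for `SL_4`. -/

set_option autoImplicit false
set_option linter.unusedSimpArgs false
set_option linter.unusedSectionVars false
set_option linter.unusedVariables false

namespace Cfsg.Agent.H9.O6

open Module Matrix Cfsg.Agent.Orth Cfsg.Agent.H6

variable {F K W : Type*} [Field F] [Field K] [Algebra F K] [AddCommGroup W] [Module F W]
  [FiniteDimensional F W] {Q : QuadraticForm F W}

/-- alternating matrices -/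
def alt (K : Type*) [Field K] : ((Fin 3 → K) × (Fin 3 → K)) →ₗ[K] Matrix (Fin 4) (Fin 4) K where
  toFun x := !![0, x.1 0, x.1 1, x.1 2; -x.1 0, 0, x.2 2, -x.2 1; -x.1 1, -x.2 2, 0, x.2 0;
    -x.1 2, x.2 1, -x.2 0, 0]
  map_add' x y := by ext i j; fin_cases i <;> fin_cases j <;> simp [add_comm]
  map_smul' c x := by ext i j; fin_cases i <;> fin_cases j <;> simp

theorem alt_T (x : (Fin 3 → K) × (Fin 3 → K)) : (alt K x)ᵀ = -alt K x := by
  ext i j; fin_cases i <;> fin_cases j <;> simp [alt]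

theorem alt_sq (p r : Fin 3 → K) : alt K (p, r) * alt K (r, p) = -(p ⬝ᵥ r) • 1 := by
  ext i j; fin_cases i <;> fin_cases j <;>
    simp [alt, mul_apply, Fin.sum_univ_four, dotProduct, Fin.sum_univ_three] <;> ring

theorem alt_tr (p r p' r' : Fin 3 → K) :
    trace (alt K (p, r) * alt K (r', p')) = -2 * (p ⬝ᵥ r' + p' ⬝ᵥ r) := by
  simp [alt, trace, mul_apply, Fin.sum_univ_four, dotProduct, Fin.sum_univ_three]; ring

theorem alt_inj {x : (Fin 3 → K) × (Fin 3 → K)} (h : alt K x = 0) : x = 0 := by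
  have := fun i j => congrFun (congrFun h i) j
  have a := this 0 1; have b := this 0 2; have c := this 0 3; have d := this 2 3
  have e := this 3 1; have f := this 1 2
  ext i <;> fin_cases i <;> simp_all [alt]

/-- Plücker coordinates -/
def wp (v a : Fin 4 → K) : Fin 3 → K :=
  ![v 0 * a 1 - a 0 * v 1, v 0 * a 2 - a 0 * v 2, v 0 * a 3 - a 0 * v 3]

/-- Plücker coordinates -/
def wr (v a : Fin 4 → K) : Fin 3 → K :=
  ![v 2 * a 3 - a 2 * v 3, v 3 * a 1 - a 3 * v 1, v 1 * a 2 - a 1 * v 2]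

theorem alt_wedge (v a : Fin 4 → K) : alt K (wp v a, wr v a) = vecMulVec v a - vecMulVec a v := by
  ext i j; fin_cases i <;> fin_cases j <;> simp [alt, wp, wr, vecMulVec_apply] <;> ring

theorem wp_wr (v a : Fin 4 → K) : wp v a ⬝ᵥ wr v a = 0 := by
  simp [wp, wr]; ring

theorem wp_wp (v a f g : Fin 4 → K) : wp v a ⬝ᵥ wp f g + wr f g ⬝ᵥ wr v a =
    (v ⬝ᵥ f) * (a ⬝ᵥ g) - (v ⬝ᵥ g) * (a ⬝ᵥ f) := by
  simp [wp, wr, dotProduct, Fin.sum_univ_four, Fin.sum_univ_three]; ring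

theorem wedge_mul {v a f g : Fin 4 → K} (h1 : v ⬝ᵥ f = 0) (h2 : v ⬝ᵥ g = 0) (h3 : a ⬝ᵥ f = 0) :
    alt K (wp v a, wr v a) * alt K (wp f g, wr f g) = -(a ⬝ᵥ g) • vecMulVec v f := by
  simp [alt_wedge, sub_mul, mul_sub, vecMulVec_mul_vecMulVec, h1, h2, h3, vecMulVec_smul]

/-- the linear family of alternating matrices -/
def AL (p r : W →ₗ[F] Fin 3 → K) : W →ₗ[F] Matrix (Fin 4) (Fin 4) K :=
  (alt K).restrictScalars F ∘ₗ p.prod r

theorem AL_apply (p r : W →ₗ[F] Fin 3 → K) (x : W) : AL p r x = alt K (p x, r x) := rfl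

variable {p r : W →ₗ[F] Fin 3 → K}

theorem B_of (hQ : ∀ x, algebraMap F K (Q x) = -(p x ⬝ᵥ r x)) (x y : W) :
    algebraMap F K (B Q x y) = -(p x ⬝ᵥ r y + p y ⬝ᵥ r x) := by
  simp [B_eq_polar, QuadraticMap.polar, hQ]; ring

omit [FiniteDimensional F W] in
theorem single_mem (sp : ∀ S : Submodule K _, (∀ x, (p x, r x) ∈ S) → ∀ z, z ∈ S)
    (S : Submodule K (Matrix (Fin 4) (Fin 4) K)) (hS : ∀ x y, AL p r x * AL r p y ∈ S) {i j : Fin 4}
    (hij : i ≠ j) : single i j 1 ∈ S := by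
  have h0 : ∀ y z, alt K z * AL r p y ∈ S := fun y =>
    sp (S.comap (LinearMap.mulRight K (AL r p y) ∘ₗ alt K)) fun x => hS x y
  have h1 : ∀ z z', alt K z * alt K z' ∈ S := fun z z' =>
    sp (S.comap (LinearMap.mulLeft K (alt K z) ∘ₗ alt K ∘ₗ (LinearEquiv.prodComm K _ _).toLinearMap))
      (fun y => h0 y z) z'.swap
  obtain ⟨k, a, b⟩ : ∃ k, i ≠ k ∧ j ≠ k := by revert i j; decide
  have := wedge_mul (K := K) (v := Pi.single i 1) (a := Pi.single k 1) (f := Pi.single j 1)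
    (g := Pi.single k 1) (by simp [hij]) (by simp [a]) (by simp [b.symm]) ▸ neg_mem (h1 _ _)
  simpa [single_eq_single_vecMulVec_single] using this

theorem kl_of {G : Subgroup (GL (Fin 4) K)} (hQ : ∀ x, algebraMap F K (Q x) = -(p x ⬝ᵥ r x))
    (inj : ∀ x, p x = 0 → r x = 0 → x = 0)
    (sp : ∀ S : Submodule K _, (∀ x, (p x, r x) ∈ S) → ∀ z, z ∈ S) (dim : finrank F W = 6)
    (mem : ∀ u w, Q u = 0 → B Q u w = 0 → ∀ g : GL (Fin 4) K, g.1 = 1 - AL p r u * AL r p w →
      g ∈ Geo.specialLinear (Fin 4) K → g ∈ G)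
    (gen : ∀ M : Subgroup (GL (Fin 4) K),
      (∀ u w, ∀ g ∈ G, Q u = 0 → B Q u w = 0 → g.1 = 1 - AL p r u * AL r p w → g ∈ M) → G ≤ M) :
    Kl Q (AL p r) (AL r p) G := by
  have sq : ∀ x, AL p r x * AL r p x = Q x • 1 := fun x => by
    rw [AL_apply, AL_apply, alt_sq, ← hQ, algebraMap_smul]
  have sq' : ∀ x, AL r p x * AL p r x = Q x • 1 := fun x => by
    rw [AL_apply, AL_apply, alt_sq, dotProduct_comm, ← hQ, algebraMap_smul]
  refine ⟨fun v hv => ?_, dim, by simp, (injective_iff_map_eq_zero _).2 fun x hx => ?_,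
    (injective_iff_map_eq_zero _).2 fun x hx => ?_, fun x => alt_T _, fun x => alt_T _, sq,
    fun x y => ?_, fun u w hu hw => ?_, gen, fun X hX => ?_⟩
  · have := sp (LinearMap.ker ((dotProductBilin K K (r v)).coprod (dotProductBilin K K (p v))))
      fun x => by
        have := B_of hQ x v
        simp only [hv, map_zero, zero_eq_neg] at this
        simpa [dotProduct_comm] using this
    exact inj v (dotProduct_eq_zero _ fun z => by simpa using this (0, z))
      (dotProduct_eq_zero _ fun z => by simpa using this (z, 0))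
  · simpa using (Prod.ext_iff.1 (alt_inj hx)).elim (inj x)
  · simpa using (Prod.ext_iff.1 (alt_inj hx)).symm.elim (inj x)
  · rw [AL_apply, AL_apply, alt_tr, map_mul, B_of hQ, map_ofNat]; ring
  · have h1 : AL p r u * AL r p w * (AL p r u * AL r p w) = 0 := by
      nth_rewrite 1 [anti_of_sq sq u w]
      simp [hw, mul_assoc, ← mul_assoc (AL r p u), sq', hu]
    obtain ⟨g, hg⟩ := gl0.surjective (uni (-toLin' (AL p r u * AL r p w)) fun v => by
      simp [-mulVec_mulVec, mulVec_neg]; simp [← mul_assoc] at h1 ⊢; simp [h1])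
    have e : g.1 = 1 - AL p r u * AL r p w := toLin'.injective (by
      rw [← gl0_coe, hg]; ext; simp [sub_eq_add_neg])
    exact ⟨g, mem u w hu hw g e ((glEquiv_mem_SLV _ g).1 (hg ▸ uni_mem_SLV _ _)), e⟩
  · obtain ⟨c, hc⟩ := mem_range_scalar_of_commute_single (M := X) fun i j hij =>
      (sub_eq_zero.1 (single_mem sp (LinearMap.ker (LinearMap.mulLeft K X - LinearMap.mulRight K X))
        (fun x y => sub_eq_zero.2 (hX x y)) hij)).symm
    exact ⟨c, by rw [← hc, scalar_apply, smul_one_eq_diagonal]⟩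

/-- the Pfaffian -/
def QL (K : Type*) [Field K] : QuadraticForm K ((Fin 3 → K) × (Fin 3 → K)) :=
  -LinearMap.BilinMap.toQuadraticMap ((dotProductBilin K K).compl₁₂ (.fst K _ _) (.snd K _ _))

theorem kl_SL (K : Type*) [Field K] :
    Kl (QL K) (AL (.fst K _ _) (.snd K _ _)) (AL (.snd K _ _) (.fst K _ _))
      (Geo.specialLinear (Fin 4) K) := by
  have hQ : ∀ x, algebraMap K K (QL K x) = -(LinearMap.fst K _ _ x ⬝ᵥ LinearMap.snd K _ _ x) :=
    fun x => rfl
  refine kl_of hQ (fun x a b => Prod.ext a b) (fun S h => h) (by simp) (fun _ _ _ _ _ _ h => h)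
    fun M hM g hg => ?_
  suffices SLV K _ ≤ M.map gl0.toMonoidHom from
    (Subgroup.mem_map_iff_mem gl0.injective).1 (this ((glEquiv_mem_SLV _ g).2 hg))
  refine SLV_le_of_forall_hasT fun v φ h => ?_
  obtain ⟨g, hg⟩ := gl0.surjective (tv v φ h)
  obtain ⟨f, rfl⟩ : ∃ f, φ = dotProductBilin K K f := ⟨fun i => φ (Pi.single i 1), by
    ext; simp⟩
  obtain ⟨a, a1, a2⟩ := exists_mem_notMem_of_finrank_lt (H := LinearMap.ker (dotProductBilin K K f))
    (X := K ∙ v) (by
      have := (dotProductBilin K K f).finrank_range_add_finrank_ker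
      have := finrank_span_singleton_le (F := K) v
      have := (LinearMap.range (dotProductBilin K K f)).finrank_le
      simp at *; omega)
  obtain ⟨ψ, b1, b2⟩ := (K ∙ v).exists_dual_map_eq_bot_of_notMem a2 inferInstance
  obtain ⟨s, rfl⟩ : ∃ f, ψ = dotProductBilin K K f := ⟨fun i => ψ (Pi.single i 1), by
    ext; simp⟩
  have b3 : v ⬝ᵥ s = 0 := by simpa [Submodule.map_span, dotProduct_comm] using b2
  replace h : v ⬝ᵥ f = 0 := by simpa [dotProduct_comm] using h
  replace a1 : a ⬝ᵥ f = 0 := by simpa [dotProduct_comm] using a1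
  replace b1 : a ⬝ᵥ s ≠ 0 := by simpa [dotProduct_comm] using b1
  refine (hasT_iff _).2 ⟨g, hM (wp v a, wr v a) ((a ⬝ᵥ s)⁻¹ • (wr f s, wp f s)) g
    ((glEquiv_mem_SLV _ g).1 (hg ▸ tv_mem_SLV _ _ _)) (by simpa [wp_wr] using hQ (wp v a, wr v a)) ?_
    (toLin'.injective ?_), hg⟩
  · simpa [← mul_add, wp_wp, h, b3] using B_of hQ (wp v a, wr v a) ((a ⬝ᵥ s)⁻¹ • (wr f s, wp f s))
  · rw [← gl0_coe, hg, map_smul]
    refine LinearMap.ext fun x => ?_
    simp [AL_apply, wedge_mul h b3 a1, smul_smul, b1, tv_apply, vecMulVec_mulVec]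

end Cfsg.Agent.H9.O6
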