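import Cfsg.Agent.H9.O6.Frame1

/-! Overgroups of the stabiliser of an orthonormal frame in dimension six (adapted from
`H1.FrameTI`). -/

set_option autoImplicit false
set_option linter.unusedSimpArgs false

namespace Cfsg.Agent.H9.O6

open Module Cfsg.Agent.Orth Cfsg.Agent.H1

variable {F V : Type*} [Field F] [AddCommGroup V] [Module F V] {Q : QuadraticForm F V}
  {M : Subgroup (V ≃ₗ[F] V)} {ι : Type*} [Fintype ι] [DecidableEq ι] {e : ι → V}

/-- standing hypotheses -/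
structure TI6 (Q : QuadraticForm F V) (M : Subgroup (V ≃ₗ[F] V)) (e : ι → V) : Prop where
  h2 : (2 : F) ≠ 0
  le : M ≤ O Q
  onb : ONB Q e
  card : Fintype.card ι = 6
  pair : ∀ α β, IsRoot F e α → IsRoot F e β → refl Q α * refl Q β ∈ M
  hB : ∀ g ∈ M, ∀ α, IsRoot F e α → IsRoot F e (g α) → Mono e g

lemma TI6.map (h : TI6 Q M e) {g : V ≃ₗ[F] V} (hg : g ∈ M) : TI6 Q M (fun i => g (e i)) := by
  refine ⟨h.h2, h.le, h.onb.map (h.le hg), h.card, fun α β hα hβ => ?_, fun k hk α hα hkα => ?_⟩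
  · have := h.pair _ _ (isRoot_map_iff.1 hα) (isRoot_map_iff.1 hβ)
    rw [← conj_refl (inv_mem (h.le hg)), ← conj_refl (inv_mem (h.le hg))] at this
    have h3 := mul_mem (mul_mem hg this) (inv_mem hg)
    convert h3 using 1; group
  · rw [mono_map_iff]
    refine h.hB _ (mul_mem (mul_mem (inv_mem hg) hk) hg) _ (isRoot_map_iff.1 hα) ?_
    simpa [mul_app] using isRoot_map_iff.1 hkα

lemma TI6.tt_mem (h : TI6 Q M e) {i j : ι} (hij : i ≠ j) : tt Q e i j ∈ M := by
  have := h.pair _ _ (isRoot_sub hij) (isRoot_add hij)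
  convert this using 1
  ext x
  rw [h.onb.tt_apply h.h2 hij, mul_app, refl_one (h.onb.root_Q h.h2 (isRoot_sub hij)),
    refl_one (h.onb.root_Q h.h2 (isRoot_add hij))]
  simp only [map_sub, map_add, map_smul, LinearMap.sub_apply, LinearMap.add_apply, smul_eq_mul,
    h.onb.self, h.onb.ne hij, h.onb.ne hij.symm]
  module

lemma TI6.plane (h : TI6 Q M e) {e' : ι → V} (h' : TI6 Q M e') {k l : ι} (hkl : k ≠ l)
    (hm : Mono e (tt Q e' k l)) :
    (∀ y ∈ M, y (e' k) = e' k → y (e' l) = e' l → Mono e y) ∧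
      ∃ i j, i ≠ j ∧ (∀ m, m ≠ k → m ≠ l → B Q (e' m) (e i) = 0 ∧ B Q (e' m) (e j) = 0) ∧
        ∀ r, r ≠ i → r ≠ j → B Q (e r) (e' k) = 0 ∧ B Q (e r) (e' l) = 0 := by
  have h2 := h.h2
  have he := h.onb
  have he' := h'.onb
  have hc := h.card
  obtain ⟨α, hα, a, b, hab⟩ := exists_root_of_mono h2 he he' hkl hm
  have fix : ∀ y : V ≃ₗ[F] V, y (e' k) = e' k → y (e' l) = e' l → y α = α := fun y h1 h3 => by
    rw [hab, map_add, map_smul, map_smul, h1, h3]
  have k1 : ∀ y ∈ M, y (e' k) = e' k → y (e' l) = e' l → Mono e y := fun y hy h1 h3 =>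
    h.hB y hy α hα (by rwa [fix y h1 h3])
  refine ⟨k1, ?_⟩
  obtain ⟨i, j, hij, ε, ε', hε, hε', hαe⟩ := hα
  have hε0 : ε ≠ 0 := by rintro rfl; simp at hε
  have hε0' : ε' ≠ 0 := by rintro rfl; simp at hε'
  set α' := ε • e i - ε' • e j with hα'
  have k2 : ∀ y ∈ M, y (e' k) = e' k → y (e' l) = e' l → y α' = α' ∨ y α' = -α' := by
    intro y hy h1 h3
    have h4 := fix y h1 h3
    obtain ⟨p, η, hη, hp⟩ := k1 y hy h1 h3 i
    obtain ⟨q, η', hη', hq⟩ := k1 y hy h1 h3 j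
    have hpq : p ≠ q := by rintro rfl; exact hij (he.eq_of_smul hη' hq hp)
    rw [hαe, map_add, map_smul, map_smul, hp, hq] at h4
    have h5 := congrArg (B Q (e i)) h4
    rw [hα', map_sub, map_smul, map_smul, hp, hq]
    by_cases c1 : p = i
    · subst c1
      simp [he.self, he.ne hpq, he.ne hij, hε0] at h5
      left
      rw [h5] at h4 ⊢
      linear_combination (norm := module) -h4
    by_cases c2 : q = i
    · subst c2
      simp [he.self, he.ne hpq.symm, he.ne hij] at h5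
      right
      rw [smul_smul ε' η', h5] at h4 ⊢
      linear_combination (norm := module) h4
    simp [he.self, he.ne (Ne.symm c1), he.ne (Ne.symm c2), he.ne hij, hε0] at h5
    exact absurd h5.symm hε0
  have k3 : ∀ m, m ≠ k → m ≠ l → B Q (e' m) α' = 0 := by
    intro m mk ml
    by_contra hne
    have k4 : ∀ m', m' ≠ k → m' ≠ l → m' ≠ m →
        α' = B Q (e' m) α' • e' m + B Q (e' m') α' • e' m' := by
      intro m' a1 a2 a3
      have h4 := k2 _ (h'.tt_mem a3.symm) (by rw [he'.tt_e h2 a3.symm]; simp [mk.symm, a1.symm])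
        (by rw [he'.tt_e h2 a3.symm]; simp [ml.symm, a2.symm])
      rw [he'.tt_apply h2 a3.symm] at h4
      rcases h4 with h4 | h4
      · have h5 := congrArg (B Q (e' m)) h4
        simp only [map_sub, map_smul, he'.self, he'.ne a3.symm, smul_eq_mul] at h5
        exact absurd (mul_left_cancel₀ h2 (by linear_combination -h5)) hne
      · apply smul_right_injective V h2
        linear_combination (norm := module) h4
    obtain ⟨m', a1, a2, a3⟩ := exists_ne3 (by omega) k l m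
    obtain ⟨m'', b1, b2, b3, b4⟩ := exists_ne4 (by omega) k l m m'
    have h4 : B Q (e' m') α' = 0 := by
      rw [k4 m'' b1 b2 b3]; simp [he'.ne a3, he'.ne b4.symm]
    have h5 := k4 m' a1 a2 a3
    rw [h4, zero_smul, add_zero] at h5
    have r1 := he'.root_Q h2 (isRoot_sub a3.symm)
    have r2 := he'.root_Q h2 (isRoot_sub b4.symm)
    have h6 := k2 _ (h'.pair _ _ (isRoot_sub a3.symm) (isRoot_sub b4.symm))
      (by rw [mul_app, refl_of_perp (a := e' m' - e' m''), refl_of_perp] <;>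
        simp [he'.ne a1, he'.ne b1, he'.ne mk])
      (by rw [mul_app, refl_of_perp (a := e' m' - e' m''), refl_of_perp] <;>
        simp [he'.ne a2, he'.ne b2, he'.ne ml])
    have h7 : (refl Q (e' m - e' m') * refl Q (e' m' - e' m'')) α' = B Q (e' m) α' • e' m' := by
      nth_rewrite 1 [h5]
      rw [map_smul, mul_app, refl_of_perp (a := e' m' - e' m'') (by simp [he'.ne a3, he'.ne b3]),
        refl_one r1]
      simp [he'.self, he'.ne a3]
    rw [h7] at h6
    rcases h6 with h6 | h6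
    · have := congrArg (B Q (e' m')) h6
      rw [h4] at this; simp [he'.self, hne] at this
    · have := congrArg (B Q (e' m')) h6
      rw [map_neg, h4] at this; simp [he'.self, hne] at this
  have k5 : ∀ m, m ≠ k → m ≠ l → B Q (e' m) (e i) = 0 ∧ B Q (e' m) (e j) = 0 := by
    intro m mk ml
    have h4 := k3 m mk ml
    have h5 : B Q (e' m) α = 0 := by rw [hab]; simp [he'.ne mk, he'.ne ml]
    rw [hαe] at h5
    simp only [hα', map_sub, map_add, map_smul, smul_eq_mul] at h4 h5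
    exact ⟨mul_left_cancel₀ (mul_ne_zero h2 hε0) (by linear_combination h4 + h5),
      mul_left_cancel₀ (mul_ne_zero h2 hε0') (by linear_combination h5 - h4)⟩
  refine ⟨i, j, hij, k5, fun r ri rj => ?_⟩
  have ex : ∀ x, (∀ m, m ≠ k → m ≠ l → B Q (e' m) x = 0) → ∀ y,
      B Q y x = B Q (e' k) x * B Q y (e' k) + B Q (e' l) x * B Q y (e' l) := by
    intro x hx y
    have : x = B Q (e' k) x • e' k + B Q (e' l) x • e' l := he'.ext fun m => by
      by_cases c1 : m = k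
      · simp [c1, he'.self, he'.ne hkl]
      by_cases c2 : m = l
      · simp [c2, he'.self, he'.ne hkl.symm]
      simp [he'.ne c1, he'.ne c2, hx m c1 c2]
    nth_rewrite 1 [this]
    simp
  have x1 := ex (e i) fun m a b => (k5 m a b).1
  have x2 := ex (e j) fun m a b => (k5 m a b).2
  have y1 := x1 (e i)
  have y2 := x2 (e j)
  have y3 := x1 (e j)
  have y4 := x1 (e r)
  have y5 := x2 (e r)
  rw [he.self, B_comm Q (e i), B_comm Q (e i)] at y1
  rw [he.self, B_comm Q (e j), B_comm Q (e j)] at y2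
  rw [he.ne hij.symm, B_comm Q (e j), B_comm Q (e j)] at y3
  rw [he.ne ri] at y4
  rw [he.ne rj] at y5
  set a1 := B Q (e' k) (e i)
  set b1 := B Q (e' l) (e i)
  set a2 := B Q (e' k) (e j)
  set b2 := B Q (e' l) (e j)
  have hD : a1 * b2 - a2 * b1 ≠ 0 := by
    intro h0
    exact one_ne_zero (α := F) (by
      linear_combination y1 + (a1 * a1 + b1 * b1) * y2 - (a1 * a2 + b1 * b2) * y3 +
        (a1 * b2 - a2 * b1) * h0)
  exact ⟨mul_left_cancel₀ hD (by linear_combination b1 * y5 - b2 * y4),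
    mul_left_cancel₀ hD (by linear_combination a2 * y4 - a1 * y5)⟩

lemma TI6.line (h : TI6 Q M e) {e' : ι → V} (h' : TI6 Q M e') {m m' m'' : ι} (h1 : m ≠ m')
    (h3 : m ≠ m'') (h4 : m' ≠ m'') (hm : Mono e (tt Q e' m m')) (hm' : Mono e (tt Q e' m m'')) :
    ∃ a, ∃ ε : F, ε * ε = 1 ∧ e' m = ε • e a := by
  obtain ⟨-, i, j, hij, a1, a2⟩ := h.plane h' h1 hm
  obtain ⟨-, i', j', hij', -, b2⟩ := h.plane h' h3 hm'
  have key : ∀ a, (∀ r, r ≠ a → B Q (e r) (e' m) = 0) → ∃ a, ∃ ε : F, ε * ε = 1 ∧ e' m = ε • e a := by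
    intro a ha
    have e1 : e' m = B Q (e a) (e' m) • e a := h.onb.ext fun r => by
      by_cases c : r = a
      · simp [c, h.onb.self]
      · simp [h.onb.ne c, ha r c]
    refine ⟨a, _, ?_, e1⟩
    have := h'.onb.self m
    nth_rewrite 1 [e1] at this
    simpa using this
  by_cases c1 : i ≠ i' ∧ i ≠ j'
  · refine key j fun r rj => ?_
    by_cases c : r = i
    · rw [c]; exact (b2 i c1.1 c1.2).1
    · exact (a2 r c rj).1
  by_cases c2 : j ≠ i' ∧ j ≠ j'
  · refine key i fun r ri => ?_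
    by_cases c : r = j
    · rw [c]; exact (b2 j c2.1 c2.2).1
    · exact (a2 r ri c).1
  exfalso
  have : e' m'' = 0 := h.onb.ext fun r => by
    rw [map_zero]
    by_cases c : r = i
    · rw [c, B_comm]; exact (a1 m'' h3.symm h4.symm).1
    by_cases c' : r = j
    · rw [c', B_comm]; exact (a1 m'' h3.symm h4.symm).2
    refine (b2 r ?_ ?_).2
    · rintro rfl; apply hij; grind
    · rintro rfl; apply hij; grind
  have h5 := h'.onb.self m''
  simp [this] at h5

lemma TI6.K (h : TI6 Q M e) {g : V ≃ₗ[F] V} (hg : g ∈ M) {k l : ι} (hkl : k ≠ l)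
    (hm : Mono e (tt Q (fun i => g (e i)) k l)) : Mono e g := by
  have h' := h.map hg
  have hc := h.card
  obtain ⟨k1, -⟩ := h.plane h' hkl hm
  have k2 : ∀ m m', m ≠ m' → m ≠ k → m ≠ l → m' ≠ k → m' ≠ l →
      Mono e (tt Q (fun i => g (e i)) m m') := fun m m' a b c d f =>
    k1 _ (h'.tt_mem a) (by rw [h'.onb.tt_e h.h2 a]; simp [b.symm, d.symm])
      (by rw [h'.onb.tt_e h.h2 a]; simp [c.symm, f.symm])
  obtain ⟨m, a1, a2⟩ := exists_ne2 (by omega) k l
  obtain ⟨m', b1, b2, b3⟩ := exists_ne3 (by omega) k l m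
  obtain ⟨m'', c1, c2, c3, c4⟩ := exists_ne4 (by omega) k l m m'
  obtain ⟨a, ε, hε, ha⟩ := h.line h' b3.symm c3.symm c4.symm (k2 _ _ b3.symm a1 a2 b1 b2)
    (k2 _ _ c3.symm a1 a2 c1 c2)
  obtain ⟨b, ε', hε', hb⟩ := h.line h' b3 c4.symm c3.symm (k2 _ _ b3 b1 b2 a1 a2)
    (k2 _ _ c4.symm b1 b2 c1 c2)
  refine h.hB g hg _ (isRoot_add b3) ⟨b, a, ?_, ε', ε, hε', hε, by rw [map_add]; congr 1⟩
  rintro rfl
  exact b3 (h.onb.eq_of_smul hε ha hb)

lemma TI6.fin (h : TI6 Q M e) {g : V ≃ₗ[F] V} (hg : g ∈ M) {α : V} (hα : IsRoot F e α) {r r' : ι}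
    (hr : r ≠ r') (h1 : B Q (g (e r)) α = 0) (h3 : B Q (g (e r')) α = 0) : Mono e g := by
  have h' := h.map hg
  refine h.K hg hr (h.hB _ (h'.tt_mem hr) α hα ?_)
  rw [h'.onb.tt_apply h.h2 hr]
  simpa [h1, h3] using hα

lemma TI6.E1 (h : TI6 Q M e) {z w : V ≃ₗ[F] V} (hz : z ∈ M) (hw : w ∈ M) {i j a b : ι} (hij : i ≠ j)
    (hab : a ≠ b) (h1 : z * tt Q e i j = tt Q e i j * z) (h3 : z * tt Q e i j = w * tt Q e a b * w⁻¹) :
    ∃ c d, c ≠ d ∧ z = tt Q e c d * tt Q e i j := by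
  have m1 : Mono e z := h.K hz hij (by
    rw [← conj_tt (h.le hz), h1, mul_inv_cancel_right]; exact h.onb.tt_mono h.h2 hij)
  have m2 : Mono e w := h.K hw hab (by
    rw [← conj_tt (h.le hw), ← h3]; exact m1.mul (h.onb.tt_mono h.h2 hij))
  obtain ⟨c, d, hcd, h4⟩ := m2.tt_eq h.onb hab
  refine ⟨c, d, hcd, ?_⟩
  rw [← h4, ← conj_tt (h.le hw), ← h3, mul_assoc, h.onb.tt_mul_self h.h2 hij, mul_one]

lemma TI6.even [Finite (V ≃ₗ[F] V)] (h : TI6 Q M e) {g : V ≃ₗ[F] V} (hg : g ∈ M) {k l i j : ι}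
    (hkl : k ≠ l) (hij : i ≠ j) (he : Even (orderOf (tt Q (fun i => g (e i)) k l * tt Q e i j))) :
    Mono e g := by
  have h' := h.map hg
  have h2 := h.h2
  have hc := h.card
  obtain ⟨m, hz1, c1, c2, ⟨j1, c3⟩, ⟨j2, c4⟩⟩ := dih_even (h'.onb.tt_mul_self h2 hkl)
    (h.onb.tt_mul_self h2 hij) he
  have hp : ∀ n : ℕ, (tt Q (fun i => g (e i)) k l * tt Q e i j) ^ n ∈ M :=
    fun n => pow_mem (mul_mem (h'.tt_mem hkl) (h.tt_mem hij)) n
  set z := (tt Q (fun i => g (e i)) k l * tt Q e i j) ^ m with hz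
  obtain ⟨a, b, hab, e1⟩ : ∃ c d, c ≠ d ∧ z = tt Q e c d * tt Q e i j := by
    rcases c3 with c3 | c3
    · refine h.E1 (hp m) (mul_mem (hp j1) hg) hij hkl c2 ?_
      rw [c3, ← conj_tt (h.le hg)]; group
    · exact h.E1 (hp m) (hp j1) hij hij c2 c3
  obtain ⟨c, d, hcd, e2⟩ : ∃ c d, c ≠ d ∧
      z = tt Q (fun i => g (e i)) c d * tt Q (fun i => g (e i)) k l := by
    rcases c4 with c4 | c4
    · exact h'.E1 (hp m) (hp j2) hkl hkl c1 c4
    · refine h'.E1 (hp m) (mul_mem (hp j2) (inv_mem hg)) hkl hij c1 ?_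
      rw [c4, ← conj_tt (h.le hg) i j]; group
  obtain ⟨α, hα, hzα⟩ : ∃ α, IsRoot F e α ∧ z α = -α := by
    have key : ∀ a b, a ≠ b → z = tt Q e a b * tt Q e i j → a ≠ i → a ≠ j →
        ∃ α, IsRoot F e α ∧ z α = -α := by
      intro a b hab e1 ai aj
      by_cases hb : b = i
      · subst hb
        refine ⟨_, isRoot_add aj, ?_⟩
        simp [e1, mul_app, h.onb.tt_e h2 hij, h.onb.tt_e h2 hab, ai, aj, aj.symm, hij.symm]; abel
      · refine ⟨_, isRoot_add ai, ?_⟩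
        simp [e1, mul_app, h.onb.tt_e h2 hij, h.onb.tt_e h2 hab, ai, aj, ai.symm, Ne.symm hb]; abel
    by_cases a1 : a ≠ i ∧ a ≠ j
    · exact key a b hab e1 a1.1 a1.2
    by_cases a2 : b ≠ i ∧ b ≠ j
    · exact key b a hab.symm (by rw [e1, h.onb.tt_comm h2 hab]) a2.1 a2.2
    exfalso
    apply hz1
    rw [e1]
    have : (a = i ∧ b = j) ∨ (a = j ∧ b = i) := by grind
    rcases this with ⟨rfl, rfl⟩ | ⟨rfl, rfl⟩
    · exact h.onb.tt_mul_self h2 hab
    · rw [h.onb.tt_comm h2 hab]; exact h.onb.tt_mul_self h2 hij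
  obtain ⟨r, r1, r2, r3, r4⟩ := exists_ne4 (by omega) c d k l
  obtain ⟨r', s1, s2, s3, s4, s5⟩ := exists_ne5 (by omega) c d k l r
  have fx : ∀ r, r ≠ c → r ≠ d → r ≠ k → r ≠ l → z (g (e r)) = g (e r) := by
    intro r r1 r2 r3 r4
    have a1 := h'.onb.tt_e h2 hkl r
    have a2 := h'.onb.tt_e h2 hcd r
    simp only [r1, r2, r3, r4, or_self, if_false] at a1 a2
    rw [e2, mul_app, a1, a2]
  exact h.fin hg hα s5 (B_eq_zero_of_fix h2 (h.le (hp m)) (fx r' s1 s2 s3 s4) hzα)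
    (B_eq_zero_of_fix h2 (h.le (hp m)) (fx r r1 r2 r3 r4) hzα)

lemma TI6.swap (h : TI6 Q M e) {g u : V ≃ₗ[F] V} (hg : g ∈ M) (hu : u ∈ M) (hu2 : u * u = 1) {k l i j : ι}
    (hkl : k ≠ l) (hij : i ≠ j) (h1 : u * tt Q (fun i => g (e i)) k l * u = tt Q e i j) :
    Mono e (g⁻¹ * u) := by
  refine h.K (mul_mem (inv_mem hg) hu) hij ?_
  have hu' : u⁻¹ = u := inv_eq_of_mul_eq_one_right hu2
  rw [← conj_tt (h.le (mul_mem (inv_mem hg) hu)), ← h1, ← conj_tt (h.le hg), mul_inv_rev, hu']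
  convert h.onb.tt_mono h.h2 hkl using 1
  simp only [mul_assoc, inv_inv, inv_mul_cancel_left, ← mul_assoc u u, hu2, one_mul, inv_mul_cancel,
    mul_one]

lemma TI6.H (h : TI6 Q M e) {g u u' : V ≃ₗ[F] V} (hg : g ∈ M) (hu : u ∈ M) (hu2 : u * u = 1)
    (hu' : u' ∈ M) (hu2' : u' * u' = 1) {k l a b j : ι} (hkl : k ≠ l) (haj : a ≠ j) (hbj : b ≠ j)
    (hab : a ≠ b) (h1 : u * tt Q (fun i => g (e i)) k l * u = tt Q e a j)
    (h1' : u' * tt Q (fun i => g (e i)) k l * u' = tt Q e b j) :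
    Mono e (u * u') ∧ Mono (fun i => g (e i)) (u * u') ∧
      ∃ c, ∃ ε : F, c ≠ b ∧ ε * ε = 1 ∧ (u * u') (e b) = ε • e c := by
  have m1 := h.swap hg hu hu2 hkl haj h1
  have m2 := h.swap hg hu' hu2' hkl hbj h1'
  have i1 : u⁻¹ = u := inv_eq_of_mul_eq_one_right hu2
  have i2 : u'⁻¹ = u' := inv_eq_of_mul_eq_one_right hu2'
  have m3 : Mono e (u * u') := by
    convert (m1.inv h.onb).mul m2 using 1
    rw [mul_inv_rev, i1]; group
  refine ⟨m3, ?_, ?_⟩
  · rw [mono_map_iff]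
    convert m1.mul (m2.inv h.onb) using 1
    rw [mul_inv_rev, i2]; group
  · obtain ⟨c, ε, hε, hc⟩ := m3 b
    refine ⟨c, ε, ?_, hε, hc⟩
    rintro rfl
    have e1 : tt Q e a j * (u * u') = (u * u') * tt Q e c j := by
      rw [← h1, ← h1']
      simp only [mul_assoc, ← mul_assoc u u, ← mul_assoc u' u', hu2, hu2', one_mul]
    have e2 := congrArg (fun f : V ≃ₗ[F] V => B Q (e c) (f (e c))) e1
    simp only [mul_app (tt Q e a j), mul_app (u * u'), hc, map_smul, h.onb.tt_e h.h2 haj,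
      h.onb.tt_e h.h2 hbj, hab.symm, hbj, or_self, if_false, true_or, if_true, map_neg, h.onb.self,
      smul_eq_mul, mul_one] at e2
    exact mul_ne_zero h.h2 (show ε ≠ 0 by rintro rfl; simp at hε) (by linear_combination e2)

variable [FiniteDimensional F V] [Finite (V ≃ₗ[F] V)]

lemma TI6.A (h : TI6 Q M e) {g : V ≃ₗ[F] V} (hg : g ∈ M) {j : ι} (hj : g (e j) = e j) : Mono e g := by
  have h' := h.map hg
  have h2 := h.h2
  have hc := h.card
  obtain ⟨a, a1, -⟩ := exists_ne2 (by omega) j j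
  obtain ⟨b, b1, b2⟩ := exists_ne2 (by omega) j a
  have key : ∀ b, b ≠ j → Mono e g ∨ ∃ x, B Q x (e j) = 0 ∧ refl Q x * refl Q (e j) ∈ M ∧
      (refl Q x * refl Q (e j)) * tt Q (fun i => g (e i)) a j * (refl Q x * refl Q (e j)) =
        tt Q e b j := by
    intro b hb
    rcases Nat.even_or_odd (orderOf (tt Q (fun i => g (e i)) a j * tt Q e b j)) with h0 | h0
    · exact Or.inl (h.even hg a1 hb h0)
    right
    obtain ⟨m, hm⟩ := dih_odd (h'.onb.tt_mul_self h2 a1) (h.onb.tt_mul_self h2 hb) h0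
    set w := (tt Q (fun i => g (e i)) a j * tt Q e b j) ^ m with hw
    have hwM : w ∈ M := pow_mem (mul_mem (h'.tt_mem a1) (h.tt_mem hb)) m
    have hwj : w (e j) = e j := by
      have : tt Q (fun i => g (e i)) a j * tt Q e b j ∈ MulAction.stabilizer (V ≃ₗ[F] V) (e j) := by
        have e1 := h'.onb.tt_e h2 a1 j
        simp only [or_true, if_true, hj] at e1
        show tt Q (fun i => g (e i)) a j (tt Q e b j (e j)) = e j
        rw [h.onb.tt_e h2 hb]; simp [e1]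
      exact pow_mem this m
    have e2 : w * tt Q (fun i => g (e i)) a j * w⁻¹ = refl Q (w (g (e a))) * refl Q (e j) := by
      rw [conj_tt (h.le hwM), tt]; simp only [hj, hwj]
    refine ⟨w (g (e a)), ?_, ?_, ?_⟩
    · rw [← hwj, ← hj, O_B (h.le hwM), O_B (h.le hg), h.onb.ne a1]
    · rw [← e2]; exact mul_mem (mul_mem hwM (h'.tt_mem a1)) (inv_mem hwM)
    · rw [← e2]; exact hm
  have sq : ∀ x y, B Q x (e j) = 0 →
      (refl Q y * refl Q (e j)) * (refl Q x * refl Q (e j)) = refl Q y * refl Q x := by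
    intro x y hx
    have := conj_refl (refl_mem_O Q (e j)) x
    rw [refl_of_perp (by rw [B_comm, hx]), refl_inv] at this
    rw [mul_assoc, ← mul_assoc (refl Q (e j)), this]
  rcases key a a1 with k1 | ⟨x, x1, x2, x3⟩
  · exact k1
  rcases key b b1 with k1 | ⟨y, y1, y2, y3⟩
  · exact k1
  obtain ⟨-, m2, c, ε, hcb, hε, h4⟩ := h.H hg x2 (by rw [sq x x x1, refl_mul_self]) y2
    (by rw [sq y y y1, refl_mul_self]) a1 a1 b1 b2.symm x3 y3
  have hO := h.le (mul_mem x2 y2)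
  rw [sq y x y1] at m2 h4 hO
  obtain ⟨r, r', hr, f1, f2⟩ := h'.onb.exists_fix_two (by omega) m2 (finrank_span_pair_le x y)
    (refl_mul_refl_sub_mem x y)
  refine h.fin hg (α := (refl Q x * refl Q y) (e b) - e b) ⟨c, b, hcb, ε, -1, hε, by simp, ?_⟩ hr
    (B_sub_eq_zero_of_fix hO f1 _) (B_sub_eq_zero_of_fix hO f2 _)
  rw [h4]; module

lemma TI6.odd_fix (h : TI6 Q M e) {g k : V ≃ₗ[F] V} (hg : g ∈ M) (hM : k ∈ M) (m1 : Mono e k)
    (h0 : Odd (orderOf k)) {b c r : ι} {ε : F} (hcb : c ≠ b) (hε : ε * ε = 1) (h4 : k (e b) = ε • e c)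
    (hr : k (g (e r)) = g (e r)) : Mono e g := by
  have h' := h.map hg
  have h2 := h.h2
  have hc := h.card
  have hα : IsRoot F e (k (e b) - e b) := ⟨c, b, hcb, ε, -1, hε, by simp, by rw [h4]; module⟩
  obtain ⟨d, ε', hε', h5⟩ := m1 c
  have hdc : d ≠ c := by rintro rfl; exact hcb (h.onb.eq_of_smul hε h4 h5)
  have hdb : d ≠ b := by
    rintro rfl
    have := fix_of_odd h0 (x := e d) 2 (by
      rw [show 2 ^ 2 = 4 by norm_num]
      simp only [pow_succ, mul_app, h4, h5, smul_smul, map_smul, pow_zero, one_mul, mul_one]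
      rw [show ε * (ε' * (ε * ε')) = 1 by linear_combination ε' * ε' * hε + hε', one_smul])
    exact hcb (h.onb.eq_of_smul (g := 1) (j := d) (ε := 1) (ε' := ε) (by simp) (by simp [one_app]) (by
      rw [one_app, ← this, h4, smul_smul, hε, one_smul]))
  have hγ : IsRoot F e (k (e c) - e c) := ⟨d, c, hdc, ε', -1, hε', by simp, by rw [h5]; module⟩
  have hc3 := h.pair _ _ hα hγ
  have m3 := h'.A hc3 (j := r) (by
    rw [mul_app, refl_of_perp (a := k (e c) - e c), refl_of_perp] <;> rw [B_comm] <;>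
      exact B_sub_eq_zero_of_fix (h.le hM) hr _)
  obtain ⟨s, s', hs, f1, f2⟩ := h'.onb.exists_fix_two (by omega) m3 (finrank_span_pair_le _ _)
    (refl_mul_refl_sub_mem _ _)
  have fz : ∀ v, (refl Q (k (e b) - e b) * refl Q (k (e c) - e c)) v = v → B Q v (k (e b) - e b) = 0 := by
    intro v hv
    have e1 := congrArg (refl Q (k (e b) - e b)) hv
    rw [mul_app (refl Q _), refl_refl, refl_one (h.onb.root_Q h2 hα), refl_one (h.onb.root_Q h2 hγ)] at e1
    have e2 := congrArg (B Q (e b)) e1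
    rw [map_sub, map_sub (B Q (e b)) v, map_smul, map_smul] at e2
    have e3 : B Q (e b) (k (e c) - e c) = 0 := by simp [h5, h.onb.ne hdb.symm, h.onb.ne hcb.symm]
    have e4 : B Q (e b) (k (e b) - e b) = -1 := by simp [h4, h.onb.self, h.onb.ne hcb.symm]
    rw [e3, e4, smul_eq_mul, smul_eq_mul] at e2
    rw [B_comm]; linear_combination -e2
  exact h.fin hg hα hs (fz _ f1) (fz _ f2)

lemma TI6.step (h : TI6 Q M e) {g w1 w2 : V ≃ₗ[F] V} (hg : g ∈ M) (x1 : w1 ∈ M) (y1 : w2 ∈ M)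
    {a j x b : ι} (a1 : a ≠ j) (x0 : x ≠ j) (b1 : b ≠ j) (b2 : b ≠ x)
    (x2 : tt Q (fun i => w1 (e i)) a j * tt Q (fun i => g (e i)) a j * tt Q (fun i => w1 (e i)) a j =
      tt Q e x j)
    (y2 : tt Q (fun i => w2 (e i)) a j * tt Q (fun i => g (e i)) a j * tt Q (fun i => w2 (e i)) a j =
      tt Q e b j) : Mono e g ∨ ∃ ε : F, ε * ε = 1 ∧
      (tt Q (fun i => w1 (e i)) a j * tt Q (fun i => w2 (e i)) a j) (e j) = ε • e x := by
  have h' := h.map hg
  have h2 := h.h2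
  have hc := h.card
  have t1 := h.map x1
  have t2 := h.map y1
  obtain ⟨m1, m2, c, ε, hcb, hε, h4⟩ := h.H hg (t1.tt_mem a1) (t1.onb.tt_mul_self h2 a1) (t2.tt_mem a1)
    (t2.onb.tt_mul_self h2 a1) a1 x0 b1 b2.symm x2 y2
  have hM := mul_mem (t1.tt_mem a1) (t2.tt_mem a1)
  have hα : IsRoot F e ((tt Q (fun i => w1 (e i)) a j * tt Q (fun i => w2 (e i)) a j) (e b) - e b) :=
    ⟨c, b, hcb, ε, -1, hε, by simp, by rw [h4]; module⟩
  rcases Nat.even_or_odd (orderOf (tt Q (fun i => w1 (e i)) a j * tt Q (fun i => w2 (e i)) a j))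
    with h0 | h0
  · have e1 : (fun i => w1 (e i)) = fun i => (w1 * w2⁻¹) (w2 (e i)) := by
      funext i; simp [mul_app]
    rw [e1] at h0
    obtain ⟨p, q, hpq, e2⟩ := (t2.even (mul_mem x1 (inv_mem y1)) a1 a1 h0).tt_eq t2.onb a1
    rw [← e1] at e2
    obtain ⟨r, r1, r2, r3, r4⟩ := exists_ne4 (by omega) p q a j
    obtain ⟨r', s1, s2, s3, s4, s5⟩ := exists_ne5 (by omega) p q a j r
    have fx : ∀ r, r ≠ p → r ≠ q → r ≠ a → r ≠ j →
        (tt Q (fun i => w1 (e i)) a j * tt Q (fun i => w2 (e i)) a j) (w2 (e r)) = w2 (e r) := by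
      intro r r1 r2 r3 r4
      have a1 := t2.onb.tt_e h2 a1 r
      have a2 := t2.onb.tt_e h2 hpq r
      simp only [r1, r2, r3, r4, or_self, if_false] at a1 a2
      rw [e2, mul_app, a1, a2]
    have m3 := h.fin y1 hα s5 (B_sub_eq_zero_of_fix (h.le hM) (fx r' s1 s2 s3 s4) _)
      (B_sub_eq_zero_of_fix (h.le hM) (fx r r1 r2 r3 r4) _)
    obtain ⟨p', q', hpq', e3⟩ := m3.tt_eq h.onb a1
    have m4 := h.swap hg (t2.tt_mem a1) (t2.onb.tt_mul_self h2 a1) a1 b1 y2
    have m5 := (h.onb.tt_mono h2 hpq').mul (m4.inv h.onb)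
    rw [← e3] at m5
    exact Or.inl (by simpa using m5)
  have e1 : tt Q e x j * (tt Q (fun i => w1 (e i)) a j * tt Q (fun i => w2 (e i)) a j) =
      (tt Q (fun i => w1 (e i)) a j * tt Q (fun i => w2 (e i)) a j) * tt Q e b j := by
    rw [← x2, ← y2]
    simp only [mul_assoc, ← mul_assoc (tt Q (fun i => w1 (e i)) a j) (tt Q (fun i => w1 (e i)) a j),
      ← mul_assoc (tt Q (fun i => w2 (e i)) a j) (tt Q (fun i => w2 (e i)) a j),
      t1.onb.tt_mul_self h2 a1, t2.onb.tt_mul_self h2 a1, one_mul]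
  generalize tt Q (fun i => w1 (e i)) a j * tt Q (fun i => w2 (e i)) a j = k at *
  have fx : ∀ (v : V) (η : F), η * η = 1 → k v = η • v → k v = v := fun v η a b =>
    fix_of_odd h0 1 (by simp [pow_succ, mul_app, b, smul_smul, a])
  obtain ⟨m, η, hη, h5⟩ := m1 j
  by_cases hm : m = j
  · left
    obtain ⟨p, hp⟩ : ∃ p, k (g (e p)) ≠ g (e p) := by
      by_contra! h6
      have : k (e b) = e b := by rw [h'.onb.span (e b)]; simp [h6]
      exact hcb (h.onb.eq_of_smul (g := 1) (j := b) (ε := 1) (ε' := ε) (by simp) (by simp [one_app]) (by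
        rw [one_app, ← this, h4, smul_smul, hε, one_smul]))
    obtain ⟨q, θ, hθ, h6⟩ := m2 p
    have := h'.odd_fix (inv_mem hg) hM m2 h0 (r := j) (c := q) (b := p)
      (fun e => hp (fx _ _ hθ (by rw [h6, e]))) hθ h6
      (by simpa using fx _ _ hη (hm ▸ h5))
    simpa using (mono_map_iff.1 this).inv h.onb
  refine Or.inr ⟨η, hη, ?_⟩
  by_contra h6
  have h7 : m ≠ x := by rintro rfl; exact h6 h5
  have e2 := congrArg (fun f : V ≃ₗ[F] V => B Q (e m) (f (e j))) e1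
  simp only [mul_app, h5, map_smul, h.onb.tt_e h2 x0, h.onb.tt_e h2 b1, hm, h7, or_self, if_false,
    or_true, if_true, map_neg, h.onb.self, smul_eq_mul, mul_one] at e2
  exact mul_ne_zero h2 (show η ≠ 0 by rintro rfl; simp at hη) (by linear_combination e2)

theorem TI6.main (h : TI6 Q M e) {g : V ≃ₗ[F] V} (hg : g ∈ M) : Mono e g := by
  have h' := h.map hg
  have h2 := h.h2
  have hc := h.card
  obtain ⟨j⟩ : Nonempty ι := Fintype.card_pos_iff.1 (by omega)
  obtain ⟨a, a1, -⟩ := exists_ne2 (by omega) j j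
  obtain ⟨b, b1, b2⟩ := exists_ne2 (by omega) j a
  obtain ⟨c, c1, c2, c3⟩ := exists_ne3 (by omega) j a b
  have key : ∀ b, b ≠ j → Mono e g ∨ ∃ w ∈ M,
      tt Q (fun i => w (e i)) a j * tt Q (fun i => g (e i)) a j * tt Q (fun i => w (e i)) a j =
        tt Q e b j := by
    intro b hb
    rcases Nat.even_or_odd (orderOf (tt Q (fun i => g (e i)) a j * tt Q e b j)) with h0 | h0
    · exact Or.inl (h.even hg a1 hb h0)
    right
    obtain ⟨m, hm⟩ := dih_odd (h'.onb.tt_mul_self h2 a1) (h.onb.tt_mul_self h2 hb) h0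
    set w := (tt Q (fun i => g (e i)) a j * tt Q e b j) ^ m with hw
    have hwM : w ∈ M := pow_mem (mul_mem (h'.tt_mem a1) (h.tt_mem hb)) m
    refine ⟨w * g, mul_mem hwM hg, ?_⟩
    rw [conj_tt (h.le hwM)] at hm
    exact hm
  by_contra hn
  obtain ⟨w1, x1, x2⟩ := (key a a1).resolve_left hn
  obtain ⟨w2, y1, y2⟩ := (key b b1).resolve_left hn
  obtain ⟨w3, z1, z2⟩ := (key c c1).resolve_left hn
  obtain ⟨ε1, p1, q1⟩ := (h.step hg x1 y1 a1 a1 b1 b2 x2 y2).resolve_left hn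
  obtain ⟨ε2, p2, q2⟩ := (h.step hg x1 z1 a1 a1 c1 c2 x2 z2).resolve_left hn
  obtain ⟨ε3, p3, q3⟩ := (h.step hg y1 z1 a1 b1 c1 c3 y2 z2).resolve_left hn
  have := congrArg (tt Q (fun i => w1 (e i)) a j * tt Q (fun i => w2 (e i)) a j) q3
  rw [← mul_app, mul_assoc, ← mul_assoc (tt Q (fun i => w2 (e i)) a j),
    (h.map y1).onb.tt_mul_self h2 a1, one_mul, q2, map_smul] at this
  exact b1 (h.onb.eq_of_smul (ε' := ε3 * ε2) p1 q1 (by
    rw [← smul_smul, this, smul_smul, p3, one_smul]))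

omit [Finite (V ≃ₗ[F] V)] in
theorem frame_core6 [Finite F] (hprime : ∀ c : F, ∃ n : ℕ, c = n)
    (h2 : (2 : F) ≠ 0) (hQ : Nd Q) (he : ONB Q e) (h7 : Fintype.card ι = 6)
    (hM : M ≤ O Q) (pair : ∀ α β, IsRoot F e α → IsRoot F e β → refl Q α * refl Q β ∈ M) :
    (∀ g ∈ M, Mono e g) ∨ EO Q ≤ M := by
  by_cases hE : EO Q ≤ M
  · exact Or.inr hE
  left
  have : Finite V := Module.finite_of_finite F
  have : Finite (V ≃ₗ[F] V) := DFunLike.finite _
  obtain ⟨i0⟩ : Nonempty ι := Fintype.card_pos_iff.1 (by omega)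
  obtain ⟨j0, hj0, -⟩ := exists_ne2 (by omega) i0 i0
  have hα0 : IsRoot F e (e j0 + e i0) := isRoot_add hj0
  set r := refl Q (e j0 + e i0) with hr
  have hrr : r * r = 1 := refl_mul_self Q _
  have hri : r⁻¹ = r := refl_inv Q _
  let G : Subgroup (V ≃ₗ[F] V) := Subgroup.closure {s | ∃ β, refl Q β * r ∈ M ∧ s = refl Q β}
  have hG : G ≤ O Q := by
    rw [Subgroup.closure_le]; rintro _ ⟨β, -, rfl⟩; exact refl_mem_O Q β
  have hsq : ∀ g ∈ G, g * g ∈ M := by
    let Z : Subgroup (V ≃ₗ[F] V) :=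
      { carrier := {g | (g ∈ M ∧ r * g * r ∈ M) ∨ (r * g ∈ M ∧ g * r ∈ M)}
        mul_mem' := by
          rintro a b (⟨a1, a2⟩ | ⟨a1, a2⟩) (⟨b1, b2⟩ | ⟨b1, b2⟩)
          · refine Or.inl ⟨mul_mem a1 b1, ?_⟩
            convert mul_mem a2 b2 using 1
            simp only [mul_assoc, ← mul_assoc r r, hrr, one_mul]
          · refine Or.inr ⟨?_, by rw [mul_assoc]; exact mul_mem a1 b2⟩
            convert mul_mem a2 b1 using 1
            simp only [mul_assoc, ← mul_assoc r r, hrr, one_mul]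
          · refine Or.inr ⟨by rw [← mul_assoc]; exact mul_mem a1 b1, ?_⟩
            convert mul_mem a2 b2 using 1
            simp only [mul_assoc, ← mul_assoc r r, hrr, one_mul]
          · refine Or.inl ⟨?_, ?_⟩
            · convert mul_mem a2 b1 using 1
              simp only [mul_assoc, ← mul_assoc r r, hrr, one_mul]
            · convert mul_mem a1 b2 using 1
              simp only [mul_assoc]
        one_mem' := Or.inl ⟨one_mem _, by rw [mul_one, hrr]; exact one_mem _⟩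
        inv_mem' := by
          rintro a (⟨a1, a2⟩ | ⟨a1, a2⟩)
          · refine Or.inl ⟨inv_mem a1, ?_⟩
            have := inv_mem a2
            simpa only [mul_inv_rev, hri, mul_assoc] using this
          · refine Or.inr ⟨?_, ?_⟩
            · simpa only [mul_inv_rev, hri] using inv_mem a2
            · simpa only [mul_inv_rev, hri] using inv_mem a1 }
    have hZ : G ≤ Z := by
      rw [Subgroup.closure_le]
      rintro _ ⟨β, hβ, rfl⟩
      refine Or.inr ⟨?_, hβ⟩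
      simpa only [mul_inv_rev, hri, refl_inv] using inv_mem hβ
    intro g hg
    rcases hZ hg with ⟨a, -⟩ | ⟨a, b⟩
    · exact mul_mem a a
    · convert mul_mem b a using 1
      simp only [mul_assoc, ← mul_assoc r r, hrr, one_mul]
  have hRG6 : RG6 Q G e := by
    refine ⟨hprime, h2, hG, hQ, he, h7, fun α hα => Subgroup.subset_closure ⟨α, pair _ _ hα hα0, rfl⟩,
      fun hE' => hE ?_⟩
    rw [EO_le_iff]
    intro u w hu hw
    have h1 : B Q u ((2 : F)⁻¹ • w) = 0 := by simp [hw]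
    have := hsq _ (hE' (eich_mem_EO u ((2 : F)⁻¹ • w)))
    rwa [eich_mul hu h1 h1, ← two_smul F, smul_smul, mul_inv_cancel₀ h2, one_smul] at this
  have hT : TI6 Q M e := by
    refine ⟨h2, hM, he, h7, pair, fun g hg α hα hgα => he.mono_of_Bn hprime h2 (by omega) (hM hg)
      fun ρ hρ => hRG6.main ⟨by rw [hM hg, he.root_Q h2 hρ], Subgroup.subset_closure ⟨_, ?_, rfl⟩⟩⟩
    have h1 := mul_mem (mul_mem (mul_mem hg (pair _ _ hρ hα)) (inv_mem hg)) (pair _ _ hgα hα0)
    convert h1 using 1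
    rw [← conj_refl (hM hg), ← conj_refl (hM hg)]
    simp only [mul_assoc, inv_mul_cancel_left, ← mul_assoc (refl Q α) (refl Q α), refl_mul_self,
      one_mul, hr]
  exact fun g hg => hT.main hg

end Cfsg.Agent.H9.O6
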