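import Cfsg.Agent.Orth.Gen
import Cfsg.Prelude.Def_GeometricClasses

/-! The Klein correspondence: groups of `4 × 4` matrices acting on a six-dimensional quadratic space
of alternating matrices. -/

set_option autoImplicit false
set_option linter.unusedSimpArgs false
set_option linter.unusedSectionVars false
set_option linter.unusedVariables false

namespace Cfsg.Agent.H9.O6

open Module Matrix Cfsg.Agent.Orth

section ring

variable {F W R : Type*} [Field F] [AddCommGroup W] [Module F W] [Ring R] [Algebra F R]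
  {Q : QuadraticForm F W} {a b : W →ₗ[F] R}

theorem anti_of_sq (h : ∀ x, a x * b x = Q x • 1) (x y : W) :
    a x * b y = B Q x y • 1 - a y * b x := by
  have := h (x + y)
  simp only [map_add, add_mul, mul_add, h, Q_add] at this
  linear_combination (norm := module) this

theorem eich_ring (h : ∀ x, a x * b x = Q x • 1) (h' : ∀ x, b x * a x = Q x • 1) {u w : W}
    (hu : Q u = 0) (hw : B Q u w = 0) (x : W) :
    (1 - a u * b w) * a x * (1 - b w * a u) = a (eich Q u w x) := by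
  have h1 : b w * a u = -(b u * a w) := by
    simpa [B_comm Q w u, hw] using anti_of_sq (a := b) (b := a) h' w u
  have h2 : ∀ z, a x * (b u * z) = B Q u x • z - a u * (b x * z) := fun z => by
    rw [← mul_assoc, anti_of_sq h x u, B_comm]; simp [sub_mul, mul_assoc]
  have h3 : ∀ z, b w * (a u * z) = -(b u * (a w * z)) := fun z => by
    rw [← mul_assoc, h1]; simp [mul_assoc]
  have h4 : ∀ z, a u * (b u * z) = 0 := fun z => by rw [← mul_assoc, h, hu]; simp
  have h5 := anti_of_sq (a := b) (b := a) h' w x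
  have e1 : a x * (b w * a u) = a u * (b x * a w) - B Q u x • a w := by
    rw [h1, mul_neg, h2, neg_sub]
  have e2 : b w * (a x * (b w * a u)) = -(b u * (a w * (b x * a w))) - (Q w * B Q u x) • 1 := by
    rw [e1, mul_sub, h3, mul_smul_comm, h', smul_smul, mul_comm (Q w)]
  simp only [eich_apply hu hw, map_add, map_sub, map_smul, sub_mul, mul_sub, one_mul, mul_one,
    mul_assoc, e2, mul_neg, h4]
  simp only [e1, h5, mul_sub, mul_smul_comm, mul_one]
  module

theorem inv_ring (h : ∀ x, a x * b x = Q x • 1) (h' : ∀ x, b x * a x = Q x • 1) {u w : W}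
    (hu : Q u = 0) (hw : B Q u w = 0) : (1 - a w * b u) * (1 - a u * b w) = 1 := by
  have h1 : a w * b u = -(a u * b w) := by simpa [B_comm Q w u, hw] using anti_of_sq h w u
  have h2 : ∀ z, b u * (a u * z) = 0 := fun z => by rw [← mul_assoc, h', hu]; simp
  rw [mul_sub, mul_one, sub_mul, mul_assoc, h2, h1]; simp

end ring

variable {F K W : Type*} {n : Type} [Field F] [Field K] [Algebra F K] [AddCommGroup W] [Module F W]
  [FiniteDimensional F W] [Fintype n] [DecidableEq n] {Q : QuadraticForm F W}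
  {A A' : W →ₗ[F] Matrix n n K} {G M : Subgroup (GL n K)}

/-- Klein data -/
structure Kl (Q : QuadraticForm F W) (A A' : W →ₗ[F] Matrix n n K) (G : Subgroup (GL n K)) :
    Prop where
  nd : Nd Q
  dim : finrank F W = 6
  card : Fintype.card n = 4
  inj : Function.Injective A
  inj' : Function.Injective A'
  skew : ∀ x, (A x)ᵀ = -A x
  skew' : ∀ x, (A' x)ᵀ = -A' x
  sq : ∀ x, A x * A' x = Q x • 1
  tr : ∀ x y, trace (A x * A' y) = algebraMap F K (2 * B Q x y)
  mem : ∀ u w, Q u = 0 → B Q u w = 0 → ∃ g ∈ G, g.1 = 1 - A u * A' w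
  gen : ∀ M : Subgroup (GL n K),
    (∀ u w, ∀ g ∈ G, Q u = 0 → B Q u w = 0 → g.1 = 1 - A u * A' w → g ∈ M) → G ≤ M
  comm : ∀ X : Matrix n n K, (∀ x y, X * (A x * A' y) = A x * A' y * X) → ∃ c : K, X = c • 1

/-- the graph of `G → O_6` -/
def Rel (A A' : W →ₗ[F] Matrix n n K) (g : GL n K) (k : W ≃ₗ[F] W) : Prop :=
  ∀ x, g.1 * A x * g.1ᵀ = A (k x) ∧ g.1ᵀ * A' (k x) * g.1 = A' x

variable {g g' : GL n K} {k k' : W ≃ₗ[F] W}

theorem Rel.one : Rel A A' 1 1 := fun _ => by simp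

theorem Rel.mul (h : Rel A A' g k) (h' : Rel A A' g' k') : Rel A A' (g * g') (k * k') := fun x => by
  simp [mul_app, ← (h _).1, ← (h' x).1, ← (h' x).2, ← (h (k' x)).2, mul_assoc]

theorem Rel.inv (h : Rel A A' g k) : Rel A A' g⁻¹ k⁻¹ := fun x => by
  obtain ⟨x, rfl⟩ := k.surjective x
  have h1 : g.1ᵀ * (g⁻¹).1ᵀ = 1 := by rw [← transpose_mul]; simp
  have h2 : (g⁻¹).1ᵀ * g.1ᵀ = 1 := by rw [← transpose_mul]; simp
  have h3 : k⁻¹ (k x) = x := k.symm_apply_apply x
  rw [h3, ← (h x).1, ← (h x).2]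
  simp only [mul_assoc, h1, Units.inv_mul_cancel_left, Units.mul_inv, mul_one]
  simp [← mul_assoc, h2, -Matrix.coe_units_inv]

theorem Rel.neg_one (e : g.1 = -1) : Rel A A' g 1 := fun x => by simp [e]

theorem Rel.pair (h : Rel A A' g k) (x y : W) :
    g.1 * (A x * A' y) = A (k x) * A' (k y) * g.1 := by
  rw [← (h x).1, ← (h y).2]; simp [mul_assoc]

/-- the image of a subgroup -/
def Img (A A' : W →ₗ[F] Matrix n n K) (M : Subgroup (GL n K)) : Subgroup (W ≃ₗ[F] W) where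
  carrier := {k | ∃ g ∈ M, Rel A A' g k}
  one_mem' := ⟨1, one_mem _, Rel.one⟩
  mul_mem' := fun ⟨g, a, b⟩ ⟨g', a', b'⟩ => ⟨_, mul_mem a a', b.mul b'⟩
  inv_mem' := fun ⟨g, a, b⟩ => ⟨_, inv_mem a, b.inv⟩

namespace Kl

variable (h : Kl Q A A' G)
include h

theorem sq' (x : W) : A' x * A x = Q x • 1 := by
  simpa [h.skew, h.skew'] using congrArg transpose (h.sq x)

theorem ne : Nonempty n := Fintype.card_pos_iff.1 (by rw [h.card]; norm_num)

theorem sc {a b : F} (e : a • (1 : Matrix n n K) = b • 1) : a = b := by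
  obtain ⟨i⟩ := h.ne
  simpa [Algebra.smul_def] using congrFun (congrFun e i) i

theorem rel_O (r : Rel A A' g k) : k ∈ O Q := fun x => h.sc (by
  have := r.pair x x
  rw [h.sq, h.sq] at this
  simpa using congrArg (· * (g⁻¹).1) this.symm)

theorem uniq (r : Rel A A' g k) (r' : Rel A A' g k') : k = k' :=
  LinearEquiv.ext fun x => h.inj ((r x).1.symm.trans (r' x).1)

theorem eich {u w : W} (hu : Q u = 0) (hw : B Q u w = 0) (e : g.1 = 1 - A u * A' w) :
    Rel A A' g (eich Q u w) := fun x => by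
  have h1 : g.1ᵀ = 1 - A' w * A u := by simp [e, h.skew, h.skew']
  rw [h1, e, eich_ring h.sq h.sq' hu hw, ← eich_ring h.sq' h.sq hu hw]
  simp only [← mul_assoc, inv_ring h.sq' h.sq hu hw]
  simp only [mul_assoc, inv_ring h.sq h.sq' hu hw, one_mul, mul_one, and_self]

theorem EO_le : EO Q ≤ Img A A' G := EO_le_iff.2 fun u w hu hw =>
  let ⟨g, a, b⟩ := h.mem u w hu hw
  ⟨g, a, h.eich hu hw b⟩

theorem exists_rel (hg : g ∈ G) : ∃ k ∈ EO Q, Rel A A' g k :=
  h.gen (M :=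
    { carrier := {g | ∃ k ∈ EO Q, Rel A A' g k}
      one_mem' := ⟨1, one_mem _, Rel.one⟩
      mul_mem' := fun ⟨_, a, b⟩ ⟨_, a', b'⟩ => ⟨_, mul_mem a a', b.mul b'⟩
      inv_mem' := fun ⟨_, a, b⟩ => ⟨_, inv_mem a, b.inv⟩ })
    (fun u w g _ hu hw e => ⟨_, eich_mem_EO u w, h.eich hu hw e⟩) hg

theorem ker (r : Rel A A' g 1) : ∃ c : K, g.1 = c • 1 := h.comm _ r.pair

theorem le_of_EO (hM : M ≤ G) (h1 : ∀ g ∈ G, Rel A A' g 1 → g ∈ M) (hE : EO Q ≤ Img A A' M) :
    G ≤ M := fun g hg => by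
  obtain ⟨k, hk, r⟩ := h.exists_rel hg
  obtain ⟨g', hg', r'⟩ := hE hk
  simpa using mul_mem hg' (h1 _ (mul_mem (inv_mem (hM hg')) hg) (by simpa using r'.inv.mul r))

theorem transfer (H : Subgroup (GL n K)) (P : (W ≃ₗ[F] W) → Prop)
    (hP : ∀ g ∈ G, ∀ k, Rel A A' g k → (g ∈ H ↔ P k)) (h1 : P 1) (hne : ∃ k ∈ EO Q, ¬ P k)
    (core : ∀ M ≤ O Q, (∀ k ∈ EO Q, P k → k ∈ M) → (∀ k ∈ M, P k) ∨ EO Q ≤ M) :
    Geo.IsMaximalIn G (H ⊓ G) := by
  refine ⟨lt_of_le_of_ne inf_le_right fun e => ?_, fun M hH hM => ?_⟩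
  · obtain ⟨k, a, b⟩ := hne
    obtain ⟨g, hg, r⟩ := h.EO_le a
    exact b ((hP g hg k r).1 (e.ge hg).1)
  refine (core (Img A A' M) ?_ fun k hk hk' => ?_).imp (fun e => le_antisymm (fun g hg => ?_) hH)
    fun e => le_antisymm hM (h.le_of_EO hM (fun g hg r => hH ⟨(hP g hg _ r).2 h1, hg⟩) e)
  · rintro k ⟨g, -, r⟩; exact h.rel_O r
  · obtain ⟨g, hg, r⟩ := h.EO_le hk
    exact ⟨g, hH ⟨(hP g hg k r).2 hk', hg⟩, r⟩
  · obtain ⟨k, -, r⟩ := h.exists_rel (hM hg)
    exact ⟨(hP g (hM hg) k r).2 (e k ⟨g, hg, r⟩), hM hg⟩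

end Kl

end Cfsg.Agent.H9.O6
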