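import Cfsg.Agent.H9.O6.Kl1
import Cfsg.Agent.H9.O6.Frame2
import Cfsg.Agent.H7.AschDensity

/-! The normaliser of `4 ∘ 2^{1+4}` is the stabiliser of an orthonormal frame. -/

set_option autoImplicit false
set_option linter.unusedSimpArgs false
set_option linter.unusedSectionVars false
set_option linter.unusedVariables false

namespace Cfsg.Agent.H9.O6

open Module Matrix Cfsg.Agent.Orth Cfsg.Agent.H1

variable {F K W : Type*} {n : Type} [Field F] [Field K] [Algebra F K] [AddCommGroup W] [Module F W]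
  [FiniteDimensional F W] [Fintype n] [DecidableEq n] {Q : QuadraticForm F W}
  {A A' : W →ₗ[F] Matrix n n K} {G R : Subgroup (GL n K)} [Finite F] [Finite K]

theorem span_eig (h2 : (2 : F) ≠ 0) {E : Subgroup (W ≃ₗ[F] W)} (hE : ∀ k ∈ E, k * k = 1) :
    Submodule.span F {x | ∀ k ∈ E, k x = x ∨ k x = -x} = ⊤ := by
  have : Finite W := Module.finite_of_finite F
  have : Finite (W ≃ₗ[F] W) := DFunLike.finite _
  suffices ∀ s : Set (W ≃ₗ[F] W), s.Finite → s ⊆ E →
    Submodule.span F {x | ∀ k ∈ s, k x = x ∨ k x = -x} = ⊤ from this E (Set.toFinite _) subset_rfl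
  intro s hs
  induction s, hs using Set.Finite.induction_on with
  | empty => simp
  | @insert k s _ _ ih =>
    intro hs
    rw [Set.insert_subset_iff] at hs
    rw [eq_top_iff, ← ih hs.2, Submodule.span_le]
    intro x hx
    have h1 : k (k x) = x := LinearEquiv.congr_fun (hE k hs.1) x
    have h3 : ∀ l ∈ s, l (k x) = k (l x) := fun l hl => by
      have := hE _ (mul_mem (hs.2 hl) hs.1)
      rw [← mul_app, ← inv_eq_of_mul_eq_one_right this, _root_.mul_inv_rev,
        inv_eq_of_mul_eq_one_right (hE k hs.1), inv_eq_of_mul_eq_one_right (hE l (hs.2 hl)), mul_app]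
    have h4 : x = (2 : F)⁻¹ • (x + k x) + (2 : F)⁻¹ • (x - k x) := by
      match_scalars <;> field_simp <;> ring
    rw [h4]
    refine add_mem (Submodule.smul_mem _ _ (Submodule.subset_span ?_))
      (Submodule.smul_mem _ _ (Submodule.subset_span ?_)) <;> rintro l (rfl | hl)
    · simp [h1, add_comm]
    · exact (hx l hl).imp (fun e => by simp [h3 l hl, e]) fun e => by simp [h3 l hl, e, add_comm]
    · simp [h1]
    · exact (hx l hl).imp (fun e => by simp [h3 l hl, e]) fun e => by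
        simp [h3 l hl, e, sub_eq_neg_add, add_comm]

theorem exists_tr [Nonempty n] (irr : H7.AbsIrr R) {X : Matrix n n K} (hX : X ≠ 0) :
    ∃ t ∈ R, trace (X * t.1) ≠ 0 := by
  by_contra! c
  refine hX (ext_iff_trace_mul_right.2 fun Y => ?_)
  exact H7.spanAlg_induction (p := fun Y => trace (X * Y) = trace (0 * Y)) (irr.mem_span Y)
    (by simpa) (by simp) (fun x y _ _ a b => by simp_all [mul_add]) fun c x _ a => by simp_all

/-- standing hypotheses -/
structure C6 (Q : QuadraticForm F W) (A A' : W →ₗ[F] Matrix n n K) (G R : Subgroup (GL n K)) :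
    Prop extends Kl Q A A' G where
  two : (2 : F) ≠ 0
  le : R ≤ G
  pm : ∀ r ∈ R, r.1 * r.1 = 1 ∨ r.1 * r.1 = -1
  irr : H7.AbsIrr R
  scal : ∀ g ∈ G, ∀ c : K, g.1 = c • 1 → g ∈ R
  isq : ∀ x y, ∀ c : K, ∀ g ∈ G, A x * A' y = c • g.1 → (c * c = algebraMap F K (Q x * Q y) ∨
      c * c = -algebraMap F K (Q x * Q y)) → IsSquare (Q x * Q y)

/-- common eigenvectors -/
def Ei (A A' : W →ₗ[F] Matrix n n K) (R : Subgroup (GL n K)) : Set W :=
  {x | ∀ k ∈ Img A A' R, k x = x ∨ k x = -x}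

/-- commutes up to sign -/
def Dg (A A' : W →ₗ[F] Matrix n n K) (R : Subgroup (GL n K)) (X : Matrix n n K) : Prop :=
  ∀ x ∈ Ei A A' R, ∀ y ∈ Ei A A' R, ∃ ε : K, ε * ε = 1 ∧ X * (A x * A' y) = ε • (A x * A' y * X)

theorem Rel.dg {g : GL n K} {k : W ≃ₗ[F] W} (r : Rel A A' g k)
    (c : ∀ x ∈ Ei A A' R, k x = x ∨ k x = -x) : Dg A A' R g.1 := fun x hx y hy => by
  rw [r.pair]
  rcases c x hx with a | a <;> rcases c y hy with b | b <;> rw [a, b]
  exacts [⟨1, by simp⟩, ⟨-1, by simp⟩, ⟨-1, by simp⟩, ⟨1, by simp⟩]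

namespace C6

variable (h : C6 Q A A' G R) {x y : W}
include h

theorem span : Submodule.span F (Ei A A' R) = ⊤ := span_eig h.two (by
  rintro k ⟨r, hr, e⟩
  exact h.uniq (e.mul e) ((h.pm r hr).elim (fun c => (Units.ext c : r * r = 1) ▸ Rel.one)
    fun c => Rel.neg_one c))

theorem zero (hx : ∀ y ∈ Ei A A' R, B Q y x = 0) : x = 0 :=
  h.nd x fun y => (h.span ▸ mem_perp_span.2 hx) y trivial

theorem scal_of (hx : x ∈ Ei A A' R) (hy : y ∈ Ei A A' R) (hb : B Q x y ≠ 0) :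
    A x * A' y = (B Q x y / 2) • 1 := by
  have h2K : (2 : K) ≠ 0 := by simpa [map_ofNat] using (map_ne_zero (algebraMap F K)).2 h.two
  obtain ⟨c, hc⟩ := h.irr.2 (A x * A' y) fun r hr => by
    obtain ⟨k, -, e⟩ := h.exists_rel (h.le hr)
    have := O_B (h.rel_O e) x y
    have := h.two
    rw [e.pair]
    rcases hx k ⟨r, hr, e⟩ with a | a <;> rcases hy k ⟨r, hr, e⟩ with b | b <;>
      simp_all [neg_eq_iff_add_eq_zero, ← two_mul]
  have := h.tr x y
  rw [hc] at this ⊢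
  rw [← algebraMap_smul K (B Q x y / 2)]
  congr 1
  simp only [trace_smul, trace_one, h.card, map_mul, map_ofNat, map_div₀, smul_eq_mul] at this ⊢
  field_simp
  exact mul_left_cancel₀ h2K (by push_cast at this; linear_combination this)

theorem par (hx : x ∈ Ei A A' R) (hy : y ∈ Ei A A' R) (hb : B Q x y ≠ 0) :
    (B Q x y / 2) • x = Q x • y :=
  h.inj' (by simpa [← mul_assoc, h.sq'] using congrArg (A' x * ·) (h.scal_of hx hy hb).symm)

theorem Q_ne (hx : x ∈ Ei A A' R) (h0 : x ≠ 0) : Q x ≠ 0 := fun e => h0 (h.zero fun y hy => by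
  by_contra c
  rw [B_comm] at c
  simpa [e, c, h0, h.two] using h.par hx hy c)

theorem sgn (hx : x ∈ Ei A A' R) (hy : y ∈ Ei A A' R) : ∃ ε : K, ε * ε = 1 ∧
    A x * A' y = ε • (A y * A' x) ∧ A' y * A x = ε • (A' x * A y) := by
  suffices ∃ ε : K, ε * ε = 1 ∧ A x * A' y = ε • (A y * A' x) from this.imp fun ε e =>
    ⟨e.1, e.2, by simpa [h.skew, h.skew'] using congrArg transpose e.2⟩
  by_cases c : B Q x y = 0
  · exact ⟨-1, by simp, by simp [anti_of_sq h.sq x y, c]⟩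
  · exact ⟨1, by simp, by rw [h.scal_of hx hy c, h.scal_of hy hx (by rwa [B_comm]), B_comm, one_smul]⟩

theorem main {X : Matrix n n K} (X0 : X ≠ 0) (hX : Dg A A' R X) : ∃ c : K, ∃ t ∈ R, X = c • t.1 := by
  have := h.ne
  obtain ⟨t, t1, t2⟩ := exists_tr h.irr X0
  obtain ⟨k, -, r⟩ := h.exists_rel (h.le t1)
  have c1 : ∀ x ∈ Ei A A' R, ∀ y ∈ Ei A A' R,
      X * t.1 * (A x * A' y) = A x * A' y * (X * t.1) := fun x hx y hy => by
    by_cases c : x = 0 ∨ y = 0
    · rcases c with rfl | rfl <;> simp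
    push Not at c
    obtain ⟨ε, a1, a2⟩ := hX x hx y hy
    obtain ⟨δ, b1, b2⟩ := r.dg (fun x hx => hx k ⟨t, t1, r⟩) x hx y hy
    have c2 : X * t.1 * (A x * A' y) = (δ * ε) • (A x * A' y * (X * t.1)) := by
      rw [mul_assoc, b2, mul_smul_comm, ← mul_assoc, a2, smul_mul_assoc, smul_smul, mul_assoc]
    have c3 := congrArg (fun Y => trace (Y * (A y * A' x))) c2
    have c4 : A' y * (A y * A' x) = Q y • A' x := by simp [← mul_assoc, h.sq']
    have c5 : ∀ Z, A' x * (A x * Z) = Q x • Z := fun Z => by simp [← mul_assoc, h.sq']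
    simp only [smul_mul_assoc, trace_smul, trace_mul_cycle (A x * A' y)] at c3
    simp only [mul_assoc, c4, c5, mul_smul_comm, h.sq, mul_one, smul_mul_assoc, one_mul,
      trace_smul, ← mul_assoc (A y)] at c3
    simp only [Algebra.smul_def, Algebra.algebraMap_self, RingHom.id_apply] at c3
    have c6 : δ * ε = 1 := mul_right_cancel₀ (mul_ne_zero (mul_ne_zero
      ((map_ne_zero (algebraMap F K)).2 (h.Q_ne hx c.1)) ((map_ne_zero (algebraMap F K)).2
        (h.Q_ne hy c.2))) t2) (by linear_combination -c3)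
    rw [c2, c6, one_smul]
  obtain ⟨c, hc⟩ := h.comm (X * t.1) fun x y => by
    have hx : x ∈ Submodule.span F (Ei A A' R) := h.span ▸ trivial
    have hy : y ∈ Submodule.span F (Ei A A' R) := h.span ▸ trivial
    induction hx, hy using Submodule.span_induction₂ with
    | mem_mem x y hx hy => exact c1 x hx y hy
    | _ => simp only [mul_add, add_mul, map_add, map_smul, map_zero, mul_zero, zero_mul,
        smul_mul_assoc, mul_smul_comm, *]
  exact ⟨c, t⁻¹, inv_mem t1, by simpa [mul_assoc] using congrArg (· * (t⁻¹).1) hc⟩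

theorem mem_R {g : GL n K} (hg : g ∈ G) {k : W ≃ₗ[F] W} (r : Rel A A' g k)
    (c : ∀ x ∈ Ei A A' R, k x = x ∨ k x = -x) : g ∈ R := by
  have := h.ne
  obtain ⟨c, t, t1, e⟩ := h.main g.ne_zero (r.dg c)
  simpa using mul_mem (h.scal _ (mul_mem hg (inv_mem (h.le t1))) c (by simp [e])) t1

theorem isSq (hx : x ∈ Ei A A' R) (hy : y ∈ Ei A A' R) (hb : B Q x y = 0) (x0 : x ≠ 0)
    (y0 : y ≠ 0) : IsSquare (Q x * Q y) := by
  have c1 : A x * A' y * (A x * A' y) = -(Q x * Q y) • 1 := by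
    nth_rewrite 2 [anti_of_sq h.sq x y]
    simp [hb, mul_assoc, ← mul_assoc (A' y), h.sq', h.sq, smul_smul, mul_comm]
  obtain ⟨c, t, t1, e⟩ := h.main (X := A x * A' y) (fun e => neg_ne_zero.2
    (mul_ne_zero (h.Q_ne hx x0) (h.Q_ne hy y0)) (h.sc (by rw [← c1, e]; simp))) fun z hz w hw => by
    obtain ⟨a, a1, -, a2⟩ := h.sgn hz hy
    obtain ⟨b, b1, b2, -⟩ := h.sgn hx hz
    obtain ⟨c, c1, c2, -⟩ := h.sgn hy hw
    obtain ⟨d, d1, -, d2⟩ := h.sgn hw hx
    refine ⟨a * b * c * d, by linear_combination (b * c * d) ^ 2 * a1 + (c * d) ^ 2 * b1 +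
      d ^ 2 * c1 + d1, ?_⟩
    rw [mul_assoc, ← mul_assoc (A' y), a2, smul_mul_assoc, mul_smul_comm, mul_assoc, c2,
      ← mul_assoc, b2, mul_smul_comm, smul_mul_assoc, mul_assoc, ← mul_assoc (A' x), d2]
    simp [smul_smul, mul_assoc, mul_left_comm]
  refine h.isq x y c t (h.le t1) e ?_
  obtain ⟨i⟩ := h.ne
  rw [e, smul_mul_assoc, mul_smul_comm, smul_smul, ← algebraMap_smul K (-(Q x * Q y))] at c1
  exact (h.pm t t1).symm.imp (fun a => by simpa [a] using congrFun (congrFun c1 i) i)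
    fun a => by simpa [a] using congrFun (congrFun c1 i) i

theorem frame : ∃ c : F, c ≠ 0 ∧ ∃ e : Fin 6 → W, ONB (c • Q) e ∧ ∀ g ∈ G, ∀ k, Rel A A' g k →
    (g ∈ Geo.subgroupNormalizer R ↔ Mono e k) := by
  obtain ⟨e, e1, e2, e3, e4⟩ : ∃ e : Fin 6 → W, (∀ i, e i ∈ Ei A A' R) ∧ (∀ i, Q (e i) = Q (e 0)) ∧
      (∀ x, (∀ i, B Q (e i) x = 0) → x = 0) ∧ LinearIndependent F e := by
    obtain ⟨e, e1, e2, e3⟩ : ∃ e : Fin 6 → W, (∀ i, e i ∈ Ei A A' R) ∧
        Submodule.span F (Set.range e) = ⊤ ∧ LinearIndependent F e := by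
      have := Submodule.exists_fun_fin_finrank_span_eq F (Ei A A' R)
      rwa [h.span, finrank_top, h.dim] at this
    have a := fun i => h.Q_ne (e1 i) (e3.ne_zero i)
    have : ∀ i, ∃ d : Fˣ, Q (d • e i) = Q (e 0) := fun i => by
      obtain ⟨s, hs⟩ : IsSquare (Q (e 0) * Q (e i)) := by
        by_cases c : 0 = i
        · exact ⟨_, by rw [← c]⟩
        refine h.isSq (e1 0) (e1 i) (by_contra fun b => c ?_) (e3.ne_zero 0) (e3.ne_zero i)
        exact e3.eq_of_smul_apply_eq_smul_apply _ _ _ _ (div_ne_zero b h.two) (h.par (e1 0) (e1 i) b)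
      have s0 : s ≠ 0 := by rintro rfl; simp [a] at hs
      refine ⟨Units.mk0 (Q (e 0) / s) (div_ne_zero (a 0) s0), ?_⟩
      rw [Units.smul_mk0, Q_smul]; field_simp; linear_combination Q (e 0) * hs
    choose d hd using this
    refine ⟨d • e, fun i k hk => ?_, fun i => (hd i).trans (hd 0).symm, fun x hx => h.nd x fun y =>
      (e2 ▸ mem_perp_span.2 ?_) y trivial, e3.units_smul d⟩
    · exact (e1 i k hk).imp (fun a => by simp [Units.smul_def, a]) fun a => by simp [Units.smul_def, a]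
    · rintro _ ⟨i, rfl⟩; simpa [Units.smul_def] using hx i
  have a := fun i => h.Q_ne (e1 i) (e4.ne_zero i)
  have hc : (2 * Q (e 0))⁻¹ ≠ 0 := inv_ne_zero (mul_ne_zero h.two (a 0))
  have hB : ∀ i j, B ((2 * Q (e 0))⁻¹ • Q) (e i) (e j) = if i = j then 1 else 0 := fun i j => by
    rw [B_scale]
    split_ifs with c
    · rw [c, B_self, e2 j, inv_mul_cancel₀ (mul_ne_zero h.two (a 0))]
    · exact mul_eq_zero_of_right _ (by_contra fun b => c (e4.eq_of_smul_apply_eq_smul_apply _ _ _ _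
        (div_ne_zero b h.two) (h.par (e1 i) (e1 j) b)))
  have hI : ∀ x ∈ Ei A A' R, ∃ j, ∃ c : F, x = c • e j := fun x hx => by
    by_cases c : ∀ i, B Q (e i) x = 0
    · exact ⟨0, 0, by simp [e3 x c]⟩
    obtain ⟨j, c⟩ := not_forall.1 c
    exact ⟨j, _, by rw [← inv_smul_smul₀ (a j) x, ← h.par (e1 j) hx c, smul_smul]⟩
  refine ⟨_, hc, e, ⟨hB, fun x => sub_eq_zero.1 (e3 _ fun i => mul_left_cancel₀ hc ?_)⟩,
    fun g hg k r => ⟨fun c i => ?_, fun c => ?_⟩⟩
  · generalize (2 * Q (e 0))⁻¹ = c at hB ⊢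
    rw [← B_scale]; simp [map_sum, hB]
  · obtain ⟨j, ε, b⟩ := hI (k (e i)) (by
      rintro l ⟨t, t1, s⟩
      exact (e1 i _ ⟨_, (Subgroup.mem_normalizer_iff''.1 c t).1 t1, (r.inv.mul s).mul r⟩).imp
        (fun b => by simpa [mul_app] using congrArg k b) fun b => by
          simpa [mul_app] using congrArg k b)
    refine ⟨j, ε, mul_right_cancel₀ (a 0) ?_, b⟩
    rw [← e2 j, ← Q_smul, ← b, h.rel_O r, e2, e2 j, one_mul]
  refine inv_mem_iff.1 (Subgroup.mem_normalizer_fintype fun t t1 => ?_)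
  obtain ⟨l, -, s⟩ := h.exists_rel (h.le t1)
  refine h.mem_R (mul_mem (mul_mem (inv_mem hg) (h.le t1)) (inv_mem (inv_mem hg)))
    ((r.inv.mul s).mul r.inv.inv) fun x hx => ?_
  obtain ⟨i, d, rfl⟩ := hI x hx
  obtain ⟨j, ε, -, b⟩ := c i
  have b' : k⁻¹ (ε • e j) = e i := b ▸ k.symm_apply_apply _
  exact (e1 j l ⟨t, t1, s⟩).imp (fun a => by simp [mul_app, b, a, ← b']) fun a => by
    simp [mul_app, b, a, ← b']

theorem max (hp : ∀ c : F, ∃ n : ℕ, c = n) :
    Geo.IsMaximalIn G (Geo.subgroupNormalizer R ⊓ G) := by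
  obtain ⟨c, hc, e, he, h1⟩ := h.frame
  have hnd := Nd_scale hc h.nd
  have hd : 5 ≤ finrank F W := by simp [h.dim]
  refine h.transfer _ _ h1 (fun i => ⟨i, 1, by simp⟩) ?_ fun M hM hP => ?_ <;>
    rw [← EO_scale hc] at *
  · obtain ⟨s, hs, hs0, hsq⟩ := exists_sing_of_three (Q := c • Q) (perp (c • Q) (F ∙ e 0)) (by
      have := finrank_perp_ge (Q := c • Q) (F ∙ e 0)
      have := finrank_span_singleton_le (F := F) (e 0)
      omega)
    rw [mem_perp_span_singleton] at hs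
    have h1 : B (c • Q) (e 0) (e 0 + s) = 1 := by rw [map_add, hs, he.self, add_zero]
    obtain ⟨g, hg, hge⟩ := Nd.EO_trans (Q := c • Q) hnd hd (x := e 0) (fun c => by simpa [c] using he.self 0)
      (y := e 0 + s) (by intro h; simp [h] at h1) (by rw [Q_add, hsq, hs]; simp)
    refine ⟨g, hg, fun hm => ?_⟩
    obtain ⟨j, ε, -, hj⟩ := hm 0
    rw [hge] at hj
    rw [hj] at h1
    by_cases c : 0 = j
    · subst c
      simp only [map_smul, he.self, smul_eq_mul, mul_one] at h1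
      exact hs0 (by simpa [h1] using hj)
    · simp [he.ne c] at h1
  · exact frame_core6 hp h.two hnd he (by simp) (by rwa [O_scale hc]) fun α β hα hβ => hP _
      (hnd.refl_mul_refl_mem_EO hd (by rw [he.root_Q h.two hα, he.root_Q h.two hβ]))
      ((he.mono_refl h.two hα).mul (he.mono_refl h.two hβ))

end C6

end Cfsg.Agent.H9.O6
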